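import Cfsg.Agent.H930.TTrans
import Cfsg.Agent.H918.UProper
import Cfsg.Agent.H930.SpInSU
import Cfsg.Agent.H876.OddFinal
import Cfsg.Agent.Lib.FastPerm
import Cfsg.Agent.H876.FrameSmall
import Cfsg.Agent.Lib.Refl
import Cfsg.Agent.H876.FrameMax
import Cfsg.Agent.FastGrp
import Cfsg.Agent.Prune
set_option linter.all false

section
prune_inst 0x7ffeebfbabfcb5dfdfff7e7fffbfdffdffb93fffa6fffdcb7fe269ff2bdf7b88cfcdfbaf8feb10fe1ff7e21490f87b53fdffebbfea6bd87ffffd1ff41ffbff8ffdf7b50851949c340f380fff03f0778e7f3fffffffffffffffffffffffffffaeffbfffffffff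

-- part: H877/UPairTwo_mg
section
prune_inst 0x100001002480000000000000000000002000000000000800000000000001000000000000021000000000800040000000010000000000000000000400000000000080020020000008400006000000000000000000000000000000000000000000000000000
set_option linter.all false
open scoped Cfsg.Agent.FastGrp

-- part: H877/Siegel
section
/-!
# Siegel elements of `SU_n(q)`

`SG q M u w`: `u, w` are isotropic and orthogonal and `M` contains all the elements
`x ↦ x + l h(x, w) u - l^q h(x, u) w`, `l ∈ F`. Two such families with the same `w` and with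
non-orthogonal `u, u'` give all transvections with centre `w` (`TT_of_SG`).
-/

set_option autoImplicit false
set_option linter.unusedSectionVars false

namespace Cfsg.Agent.H877

open Cfsg Cfsg.Geo Cfsg.Agent.H918 Cfsg.Agent.LieClassical.HermBasic Cfsg.Agent.H930
open scoped Matrix MatrixGroups

variable {F : Type*} [Field F] [Fintype F] {n q : ℕ}

/-- `u, w` are isotropic and orthogonal and `M` contains all `x ↦ x + l h(x, w) u - l^q h(x, u) w`. -/
def SG (q : ℕ) (M : Subgroup (GL (Fin n) F)) (u w : Fin n → F) : Prop :=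
  hermForm n F q u u = 0 ∧ hermForm n F q w w = 0 ∧ hermForm n F q u w = 0 ∧ ∀ l : F,
    ∃ g ∈ M, ∀ x, (g : Matrix (Fin n) (Fin n) F) *ᵥ x =
      x + (l * hermForm n F q x w) • u - (l ^ q * hermForm n F q x u) • w

theorem SG.conj {M : Subgroup (GL (Fin n) F)} {u w : Fin n → F} (hv : SG q M u w) {g : GL (Fin n) F}
    (hg : g ∈ M)
    (hgu : ∀ x y, hermForm n F q ((g : Matrix (Fin n) (Fin n) F) *ᵥ x) ((g : Matrix (Fin n) (Fin n) F) *ᵥ y) =
      hermForm n F q x y) :
    SG q M ((g : Matrix (Fin n) (Fin n) F) *ᵥ u) ((g : Matrix (Fin n) (Fin n) F) *ᵥ w) := by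
  refine ⟨by rw [hgu, hv.1], by rw [hgu, hv.2.1], by rw [hgu, hv.2.2.1], fun l => ?_⟩
  obtain ⟨t, ht, htx⟩ := hv.2.2.2 l
  refine ⟨g * t * g⁻¹, M.mul_mem (M.mul_mem hg ht) (M.inv_mem hg), fun x => ?_⟩
  rw [Units.val_mul, Units.val_mul, ← Matrix.mulVec_mulVec, ← Matrix.mulVec_mulVec, htx, Matrix.mulVec_sub,
    Matrix.mulVec_add, mulVec_inv, Matrix.mulVec_smul, Matrix.mulVec_smul]
  have h1 := hgu (((g⁻¹ : GL (Fin n) F) : Matrix (Fin n) (Fin n) F) *ᵥ x) u
  have h2 := hgu (((g⁻¹ : GL (Fin n) F) : Matrix (Fin n) (Fin n) F) *ᵥ x) w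
  rw [mulVec_inv] at h1 h2
  rw [h1, h2]

theorem SG.smul_left {M : Subgroup (GL (Fin n) F)} {u w : Fin n → F} (hv : SG q M u w) (a : F) :
    SG q M (a • u) w := by
  refine ⟨by rw [herm_smul_left, herm_smul_right, hv.1, mul_zero, mul_zero], hv.2.1,
    by rw [herm_smul_left, hv.2.2.1, mul_zero], fun l => ?_⟩
  obtain ⟨t, ht, htx⟩ := hv.2.2.2 (l * a)
  refine ⟨t, ht, fun x => ?_⟩
  rw [htx, herm_smul_right, mul_pow]
  ext i
  simp only [Pi.add_apply, Pi.sub_apply, Pi.smul_apply, smul_eq_mul]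
  ring

/-- Siegel elements are in `SU_n(q)`. -/
theorem SG_top (hF : Fintype.card F = q ^ 2) {u w : Fin n → F} (hu : hermForm n F q u u = 0)
    (hw : hermForm n F q w w = 0) (huw : hermForm n F q u w = 0) : SG q (SUg n F q) u w := by
  refine ⟨hu, hw, huw, fun l => ?_⟩
  obtain ⟨c, hc0, hc⟩ := exists_trace_zero_ne hF
  have hc' : -c + (-c) ^ q = 0 := by rw [neg_pow_q hF]; linear_combination -hc
  have hwu : hermForm n F q w u = 0 := herm_eq_zero_swap hF huw
  set a : F := l / c with ha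
  have hau : hermForm n F q (a • u) (a • u) = 0 := by
    rw [herm_smul_left, herm_smul_right, hu, mul_zero, mul_zero]
  have hauw : hermForm n F q (a • u + w) (a • u + w) = 0 := by
    rw [herm_add_left, herm_add_right hF, herm_add_right hF, hau, herm_smul_left, herm_smul_right, huw, hwu, hw]
    ring
  refine ⟨tv hF (a • u + w) c hauw hc * tv hF (a • u) (-c) hau hc' * tv hF w (-c) hw hc',
    Subgroup.mul_mem _ (Subgroup.mul_mem _ (tv_mem hF _ _) (tv_mem hF _ _)) (tv_mem hF _ _), fun x => ?_⟩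
  rw [Units.val_mul, Units.val_mul, ← Matrix.mulVec_mulVec, ← Matrix.mulVec_mulVec, tv_mulVec, tv_mulVec,
    tv_mulVec]
  simp only [herm_add_left, herm_add_right hF, herm_smul_left, herm_smul_right, hu, hw, huw, hwu]
  have e1 : c * a = l := by rw [ha]; field_simp
  have hcq : c ^ q = -c := by linear_combination hc
  have e2 : c * a ^ q = - l ^ q := by
    have : l ^ q = -c * a ^ q := by rw [← e1, mul_pow, hcq]
    rw [this]; ring
  ext i
  simp only [Pi.add_apply, Pi.sub_apply, Pi.smul_apply, smul_eq_mul]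
  have e3 : l ^ q = -(c * a ^ q) := by rw [e2]; ring
  rw [← e1] at e3 ⊢
  rw [e3]
  ring

/-- Two non-orthogonal Siegel families with the same second vector give all transvections. -/
theorem TT_of_SG (hF : Fintype.card F = q ^ 2) {M : Subgroup (GL (Fin n) F)} {a b w : Fin n → F}
    (ha : SG q M a w) (hb : SG q M b w) (hab : hermForm n F q a b ≠ 0) : TT q M w := by
  refine ⟨ha.2.1, fun c hc => ?_⟩
  obtain ⟨c0, hc00, hc0⟩ := exists_trace_zero_ne hF
  have hw : hermForm n F q w w = 0 := ha.2.1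
  have haw : hermForm n F q a w = 0 := ha.2.2.1
  have hbw : hermForm n F q b w = 0 := hb.2.2.1
  have hwa : hermForm n F q w a = 0 := herm_eq_zero_swap hF haw
  have hwb : hermForm n F q w b = 0 := herm_eq_zero_swap hF hbw
  have hcq : c ^ q = -c := by linear_combination hc
  have hc0q : c0 ^ q = -c0 := by linear_combination hc0
  obtain ⟨t, ht⟩ := exists_trace_eq hF (c := c / c0) (by rw [div_pow, hcq, hc0q, neg_div_neg_eq])
  -- `μ h(a,b) - (μ h(a,b))^q = c`
  set μ : F := t * c0 / hermForm n F q a b with hμ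
  have e1 : μ * hermForm n F q a b = t * c0 := by rw [hμ]; field_simp
  have hba : hermForm n F q b a = hermForm n F q a b ^ q := by rw [herm_swap hF]
  have e2 : μ ^ q * hermForm n F q b a = - (t ^ q * c0) := by
    rw [hba, ← mul_pow, e1, mul_pow, hc0q]; ring
  have e3 : (t + t ^ q) * c0 = c := by rw [ht]; field_simp
  obtain ⟨A, hA, hAx⟩ := ha.2.2.2 μ
  obtain ⟨B, hB, hBx⟩ := hb.2.2.2 1
  refine ⟨A * B * A⁻¹ * B⁻¹, M.mul_mem (M.mul_mem (M.mul_mem hA hB) (M.inv_mem hA)) (M.inv_mem hB), fun x => ?_⟩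
  set y : Fin n → F := ((A⁻¹ : GL (Fin n) F) : Matrix (Fin n) (Fin n) F) *ᵥ
    (((B⁻¹ : GL (Fin n) F) : Matrix (Fin n) (Fin n) F) *ᵥ x) with hy
  have hx : x = (B : Matrix (Fin n) (Fin n) F) *ᵥ ((A : Matrix (Fin n) (Fin n) F) *ᵥ y) := by
    rw [hy, mulVec_inv, mulVec_inv]
  have hL : ((A * B * A⁻¹ * B⁻¹ : GL (Fin n) F) : Matrix (Fin n) (Fin n) F) *ᵥ x =
      (A : Matrix (Fin n) (Fin n) F) *ᵥ ((B : Matrix (Fin n) (Fin n) F) *ᵥ y) := by
    rw [Units.val_mul, Units.val_mul, Units.val_mul, ← Matrix.mulVec_mulVec, ← Matrix.mulVec_mulVec,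
      ← Matrix.mulVec_mulVec]
  rw [hL, hx]
  simp only [hAx, hBx, herm_add_left, herm_sub_left, herm_smul_left, one_pow, one_mul, hw, haw, hbw, hwa,
    hwb, mul_zero, add_zero, sub_zero]
  ext i
  simp only [Pi.add_apply, Pi.sub_apply, Pi.smul_apply, smul_eq_mul]
  linear_combination (-(hermForm n F q y w * w i)) * e2 + (hermForm n F q y w * w i) * e1
    + (hermForm n F q y w * w i) * e3

end Cfsg.Agent.H877
end

-- part: H877/UPair
section
/-!
# Complementary totally singular pairs in the unitary space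

`IsPair q X Y`: complementary totally singular subspaces. If a subgroup `M` of `SU_n(q)` contains all elements
preserving `X` and `Y` and all elements interchanging them (`HM`, `HS`), and one of its elements does neither, and
`dim X = dim Y ≥ 4`, then `M = SU_n(q)`.
-/

set_option autoImplicit false
set_option linter.unusedSectionVars false
set_option linter.unusedSimpArgs false

namespace Cfsg.Agent.H877

open Cfsg Cfsg.Geo Cfsg.Agent.H918 Cfsg.Agent.LieClassical.HermBasic Cfsg.Agent.H930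
open scoped Matrix MatrixGroups

variable {F : Type*} [Field F] [Fintype F] {n q : ℕ}

/-- `X`, `Y` are complementary totally singular subspaces. -/
structure IsPair (q : ℕ) (X Y : Submodule F (Fin n → F)) : Prop where
  tsX : ∀ u ∈ X, ∀ v ∈ X, hermForm n F q u v = 0
  tsY : ∀ u ∈ Y, ∀ v ∈ Y, hermForm n F q u v = 0
  compl : IsCompl X Y

variable {X Y : Submodule F (Fin n → F)}

theorem IsPair.symm (h : IsPair q X Y) : IsPair q Y X := ⟨h.tsY, h.tsX, h.compl.symm⟩

theorem IsPair.decomp (h : IsPair q X Y) (v : Fin n → F) : ∃ x ∈ X, ∃ y ∈ Y, v = x + y := by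
  have : v ∈ X ⊔ Y := by rw [h.compl.sup_eq_top]; trivial
  obtain ⟨x, hx, y, hy, hxy⟩ := Submodule.mem_sup.1 this
  exact ⟨x, hx, y, hy, hxy.symm⟩

theorem IsPair.eq_zero (h : IsPair q X Y) {v : Fin n → F} (hx : v ∈ X) (hy : v ∈ Y) : v = 0 :=
  Submodule.disjoint_def.1 h.compl.disjoint v hx hy

theorem IsPair.exists_ne (hF : Fintype.card F = q ^ 2) (h : IsPair q X Y) {x : Fin n → F} (hx : x ∈ X)
    (hx0 : x ≠ 0) : ∃ y ∈ Y, hermForm n F q x y ≠ 0 := by
  obtain ⟨v, hv⟩ := exists_herm_ne_zero hF hx0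
  obtain ⟨a, ha, b, hb, rfl⟩ := h.decomp v
  refine ⟨b, hb, ?_⟩
  rwa [herm_add_right hF, h.tsX x hx a ha, zero_add] at hv

theorem IsPair.exists_ne' (hF : Fintype.card F = q ^ 2) (h : IsPair q X Y) {x : Fin n → F} (hx : x ∈ X)
    (hx0 : x ≠ 0) : ∃ y ∈ Y, hermForm n F q y x ≠ 0 := by
  obtain ⟨y, hy, hxy⟩ := h.exists_ne hF hx hx0
  exact ⟨y, hy, fun h0 => hxy (herm_eq_zero_swap hF h0)⟩

/-- A vector of `Y` outside the line of `w` is not orthogonal to `X ∩ w^⊥`. -/
theorem IsPair.exists_perp (hF : Fintype.card F = q ^ 2) (h : IsPair q X Y) {w y : Fin n → F} (hw : w ∈ Y)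
    (hy : y ∈ Y) (hyw : ∀ c : F, y ≠ c • w) :
    ∃ u ∈ X, hermForm n F q u w = 0 ∧ hermForm n F q u y ≠ 0 := by
  by_contra hcon
  push Not at hcon
  by_cases hw0 : w = 0
  · subst hw0
    have hy0 : y ≠ 0 := by
      intro h0
      exact hyw 0 (by rw [h0, smul_zero])
    obtain ⟨x, hx, hxy⟩ := h.symm.exists_ne' hF hy hy0
    exact hxy (hcon x hx (herm_zero_right hF x))
  · obtain ⟨z, hz, hzw⟩ := h.symm.exists_ne' hF hw hw0
    set c : F := (hermForm n F q z y / hermForm n F q z w) ^ q with hc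
    have hcq : c ^ q = hermForm n F q z y / hermForm n F q z w := by rw [hc, pow_q_pow_q hF]
    have hne : y - c • w ≠ 0 := sub_ne_zero.2 (hyw c)
    obtain ⟨x, hx, hxy⟩ := h.symm.exists_ne' hF (Y.sub_mem hy (Y.smul_mem c hw)) hne
    apply hxy
    have h1 := hcon (x - (hermForm n F q x w / hermForm n F q z w) • z) (X.sub_mem hx (X.smul_mem _ hz)) (by
      rw [herm_sub_left, herm_smul_left]
      field_simp
      ring)
    rw [herm_sub_left, herm_smul_left] at h1
    rw [herm_sub_right hF, herm_smul_right, hcq]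
    field_simp at h1 ⊢
    linear_combination h1

variable {M : Subgroup (GL (Fin n) F)}

/-- `M` contains all elements of `SU_n(q)` preserving `X` and `Y`. -/
def Fixes (q : ℕ) (X Y : Submodule F (Fin n → F)) (M : Subgroup (GL (Fin n) F)) : Prop :=
  ∀ g ∈ SUg n F q, (∀ x ∈ X, (g : Matrix (Fin n) (Fin n) F) *ᵥ x ∈ X) →
    (∀ y ∈ Y, (g : Matrix (Fin n) (Fin n) F) *ᵥ y ∈ Y) → g ∈ M

theorem Fixes.symm (h : Fixes q X Y M) : Fixes q Y X M := fun g hg h1 h2 => h g hg h2 h1

theorem SG_std (hF : Fintype.card F = q ^ 2) (hP : IsPair q X Y) (HM : Fixes q X Y M) {u w : Fin n → F}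
    (hu : u ∈ X) (hw : w ∈ Y) (huw : hermForm n F q u w = 0) : SG q M u w := by
  have hT := SG_top hF (hP.tsX u hu u hu) (hP.tsY w hw w hw) huw
  refine ⟨hT.1, hT.2.1, hT.2.2.1, fun l => ?_⟩
  obtain ⟨g, hg, hgx⟩ := hT.2.2.2 l
  refine ⟨g, HM g hg (fun x hx => ?_) (fun y hy => ?_), hgx⟩
  · rw [hgx, hP.tsX x hx u hu, mul_zero, zero_smul, sub_zero]
    exact X.add_mem hx (X.smul_mem _ hu)
  · rw [hgx, hP.tsY y hy w hw, mul_zero, zero_smul, add_zero]
    exact Y.sub_mem hy (Y.smul_mem _ hw)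

theorem isometry_of_mem (hMS : M ≤ SUg n F q) {g : GL (Fin n) F} (hg : g ∈ M) (x y : Fin n → F) :
    hermForm n F q ((g : Matrix (Fin n) (Fin n) F) *ᵥ x) ((g : Matrix (Fin n) (Fin n) F) *ᵥ y) =
      hermForm n F q x y := (mem_SUg.1 (hMS hg)).1 x y

/-- The stabiliser of `X` and `Y` moves every non-zero vector of `Y` to any other one, up to scalars. -/
theorem exists_move (hF : Fintype.card F = q ^ 2) (hP : IsPair q X Y) (HM : Fixes q X Y M)
    {y y' : Fin n → F} (hy : y ∈ Y) (hy' : y' ∈ Y) (hyy : ∀ c : F, y ≠ c • (y - y')) :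
    ∃ g ∈ M, (g : Matrix (Fin n) (Fin n) F) *ᵥ y = y' := by
  obtain ⟨u, hu, hu1, hu2⟩ := hP.exists_perp hF (Y.sub_mem hy hy') hy hyy
  have hSG := SG_std hF hP HM hu (Y.sub_mem hy hy') hu1
  have hyu : hermForm n F q y u ≠ 0 := fun h0 => hu2 (herm_eq_zero_swap hF h0)
  obtain ⟨g, hg, hgx⟩ := hSG.2.2.2 ((hermForm n F q y u)⁻¹ ^ q)
  refine ⟨g, hg, ?_⟩
  rw [hgx, hP.tsY y hy _ (Y.sub_mem hy hy'), mul_zero, zero_smul, add_zero, pow_q_pow_q hF,
    inv_mul_cancel₀ hyu, one_smul]
  abel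

theorem TT_move (hF : Fintype.card F = q ^ 2) (hP : IsPair q X Y) (HM : Fixes q X Y M) (hMS : M ≤ SUg n F q)
    {y y' : Fin n → F} (hy : y ∈ Y) (hy' : y' ∈ Y) (hy0 : y ≠ 0) (hT : TT q M y) : TT q M y' := by
  by_cases hyy : ∃ c : F, y = c • (y - y')
  · obtain ⟨c, hc⟩ := hyy
    have hc0 : c ≠ 0 := by
      rintro rfl
      exact hy0 (by rw [hc, zero_smul])
    have : y' = (1 - c⁻¹) • y := by
      rw [sub_smul, one_smul]
      have h1 : c⁻¹ • y = y - y' := by
        conv_lhs => rw [hc]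
        rw [smul_smul, inv_mul_cancel₀ hc0, one_smul]
      rw [h1]
      abel
    rw [this]
    exact hT.smul hF _
  · push Not at hyy
    obtain ⟨g, hg, hgy⟩ := exists_move hF hP HM hy hy' hyy
    rw [← hgy]
    exact hT.conj hg (isometry_of_mem hMS hg)

/-- Transvections with centres in `X` and in `Y` give all of them. -/
theorem TT_all (hF : Fintype.card F = q ^ 2) (hP : IsPair q X Y) (hMS : M ≤ SUg n F q)
    (hX : ∀ x ∈ X, TT q M x) (hY : ∀ y ∈ Y, TT q M y) {v : Fin n → F} (hv : hermForm n F q v v = 0) :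
    TT q M v := by
  -- first case
  have key : ∀ x ∈ X, ∀ y ∈ Y, hermForm n F q x y ≠ 0 → hermForm n F q (x + y) (x + y) = 0 → TT q M (x + y) := by
    intro x hx y hy hxy hv
    rw [herm_add_left, herm_add_right hF, herm_add_right hF, hP.tsX x hx x hx, hP.tsY y hy y hy] at hv
    have h1 : hermForm n F q y x = hermForm n F q x y ^ q := herm_swap hF x y
    have h2 : hermForm n F q y x ≠ 0 := fun h0 => hxy (herm_eq_zero_swap hF h0)
    have h3 : hermForm n F q x y ^ q = - hermForm n F q x y := by rw [← h1]; linear_combination hv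
    obtain ⟨t, ht, htx⟩ := (hX x hx).2 (hermForm n F q y x)⁻¹ (by
      rw [h1, inv_pow, pow_q_pow_q hF, h3, inv_neg]
      ring)
    have : (t : Matrix (Fin n) (Fin n) F) *ᵥ y = x + y := by
      rw [htx, inv_mul_cancel₀ h2, one_smul, add_comm]
    rw [← this]
    exact (hY y hy).conj ht (isometry_of_mem hMS ht)
  obtain ⟨x, hx, y, hy, rfl⟩ := hP.decomp v
  by_cases hx0 : x = 0
  · rw [hx0, zero_add]
    exact hY y hy
  by_cases hxy : hermForm n F q x y = 0
  · obtain ⟨z, hz, hxz⟩ := hP.exists_ne hF hx hx0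
    obtain ⟨c, hc0, hc⟩ := exists_trace_zero_ne hF
    obtain ⟨t, ht, htx⟩ := (hY z hz).2 c hc
    have e : (t : Matrix (Fin n) (Fin n) F) *ᵥ (x + y) = x + (y + (c * hermForm n F q x z) • z) := by
      rw [htx, herm_add_left, hP.tsY y hy z hz, add_zero, add_assoc]
    have h1 : hermForm n F q (x + (y + (c * hermForm n F q x z) • z)) (x + (y + (c * hermForm n F q x z) • z)) = 0 := by
      rw [← e, isometry_of_mem hMS ht, hv]
    have h2 : hermForm n F q x (y + (c * hermForm n F q x z) • z) ≠ 0 := by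
      rw [herm_add_right hF, hxy, zero_add, herm_smul_right]
      refine mul_ne_zero ?_ hxz
      intro h0
      exact mul_ne_zero hc0 hxz ((pow_q_eq_zero hF).1 h0)
    have h3 := key x hx _ (Y.add_mem hy (Y.smul_mem _ hz)) h2 h1
    rw [← e] at h3
    have h4 := h3.conj (M.inv_mem ht) (isometry_of_mem hMS (M.inv_mem ht))
    rwa [inv_mulVec] at h4
  · exact key x hx y hy hxy hv

/-! ### The swap -/

/-- The swap on a hyperbolic pair. -/
theorem exists_swap_one (hF : Fintype.card F = q ^ 2) {c : F} (hc0 : c ≠ 0) (hc : c + c ^ q = 0)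
    {e f : Fin n → F} (he : hermForm n F q e e = 0) (hf : hermForm n F q f f = 0)
    (hef : hermForm n F q e f = 1) (hfe : hermForm n F q f e = 1) :
    ∃ s ∈ SUg n F q, (s : Matrix (Fin n) (Fin n) F) *ᵥ e = (-c⁻¹) • f ∧
      (s : Matrix (Fin n) (Fin n) F) *ᵥ f = c • e ∧
      ∀ x, hermForm n F q x e = 0 → hermForm n F q x f = 0 → (s : Matrix (Fin n) (Fin n) F) *ᵥ x = x := by
  have hcq : c ^ q = -c := by linear_combination hc
  have hd : -c⁻¹ + (-c⁻¹) ^ q = 0 := by
    rw [neg_pow_q hF, inv_pow, hcq, inv_neg]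
    ring
  refine ⟨tv hF e c he hc * tv hF f (-c⁻¹) hf hd * tv hF e c he hc,
    Subgroup.mul_mem _ (Subgroup.mul_mem _ (tv_mem hF _ _) (tv_mem hF _ _)) (tv_mem hF _ _), ?_, ?_, ?_⟩
  · rw [Units.val_mul, Units.val_mul, ← Matrix.mulVec_mulVec, ← Matrix.mulVec_mulVec, tv_mulVec, tv_mulVec,
      tv_mulVec]
    simp only [herm_add_left, herm_smul_left, he, hf, hef, hfe]
    ext i
    simp only [Pi.add_apply, Pi.smul_apply, smul_eq_mul]
    field_simp
    ring
  · rw [Units.val_mul, Units.val_mul, ← Matrix.mulVec_mulVec, ← Matrix.mulVec_mulVec, tv_mulVec, tv_mulVec,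
      tv_mulVec]
    simp only [herm_add_left, herm_smul_left, he, hf, hef, hfe]
    ext i
    simp only [Pi.add_apply, Pi.smul_apply, smul_eq_mul]
    field_simp
    ring
  · intro x hxe hxf
    rw [Units.val_mul, Units.val_mul, ← Matrix.mulVec_mulVec, ← Matrix.mulVec_mulVec, tv_mulVec, tv_mulVec,
      tv_mulVec]
    simp only [herm_add_left, herm_smul_left, he, hf, hef, hfe, hxe, hxf, mul_zero, zero_smul, add_zero]

/-- There is an element of `SU_n(q)` interchanging `X` and `Y`. -/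
theorem IsPair.exists_swap (hF : Fintype.card F = q ^ 2) (hP : IsPair q X Y)
    (hXY : Module.finrank F X = Module.finrank F Y) :
    ∃ s ∈ SUg n F q, (∀ x ∈ X, (s : Matrix (Fin n) (Fin n) F) *ᵥ x ∈ Y) ∧
      ∀ y ∈ Y, (s : Matrix (Fin n) (Fin n) F) *ᵥ y ∈ X := by
  classical
  obtain ⟨c, hc0, hc⟩ := exists_trace_zero_ne hF
  let b := Module.finBasis F X
  let L : Y →ₗ[F] (Fin (Module.finrank F X) → F) :=
    { toFun := fun y i => hermForm n F q y (b i : Fin n → F)
      map_add' := fun x y => by ext i; simp [herm_add_left]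
      map_smul' := fun a x => by ext i; simp [herm_smul_left] }
  have hL : ∀ y i, L y i = hermForm n F q y (b i : Fin n → F) := fun _ _ => rfl
  have hspan : ∀ x (hx : x ∈ X), x = ∑ i, b.repr ⟨x, hx⟩ i • (b i : Fin n → F) := by
    intro x hx
    have := congrArg (fun z : X => (z : Fin n → F)) (b.sum_repr ⟨x, hx⟩)
    simp only [AddSubmonoidClass.coe_finsetSum, Submodule.coe_smul] at this
    exact this.symm
  have hinj : Function.Injective L := by
    rw [← LinearMap.ker_eq_bot, LinearMap.ker_eq_bot']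
    intro y hy
    by_contra hy0
    have hy0' : (y : Fin n → F) ≠ 0 := fun h0 => hy0 (Subtype.ext h0)
    obtain ⟨x, hx, hyx⟩ := hP.symm.exists_ne hF y.2 hy0'
    apply hyx
    rw [hspan x hx, herm_sum_right hF]
    refine Finset.sum_eq_zero fun i _ => ?_
    rw [herm_smul_right]
    have := congrFun hy i
    rw [hL] at this
    rw [this, Pi.zero_apply, mul_zero]
  have hsurj : Function.Surjective L := by
    rw [← LinearMap.injective_iff_surjective_of_finrank_eq_finrank]
    · exact hinj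
    · rw [Module.finrank_fin_fun, hXY]
  choose f hf using fun i : Fin (Module.finrank F X) => hsurj (Pi.single i 1)
  have hfe : ∀ i j, hermForm n F q (f i : Fin n → F) (b j : Fin n → F) = if j = i then 1 else 0 := by
    intro i j
    rw [← hL, hf, Pi.single_apply]
  have hef : ∀ i j, hermForm n F q (b j : Fin n → F) (f i : Fin n → F) = if j = i then 1 else 0 := by
    intro i j
    rw [herm_swap hF, hfe]
    split_ifs
    · exact one_pow q
    · exact zero_pow_q hF
  have hind : ∀ S : Finset (Fin (Module.finrank F X)), ∃ s ∈ SUg n F q,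
      (∀ j, (s : Matrix (Fin n) (Fin n) F) *ᵥ (b j : Fin n → F) =
        if j ∈ S then (-c⁻¹) • (f j : Fin n → F) else (b j : Fin n → F)) ∧
      (∀ j, (s : Matrix (Fin n) (Fin n) F) *ᵥ (f j : Fin n → F) =
        if j ∈ S then c • (b j : Fin n → F) else (f j : Fin n → F)) := by
    intro S
    induction S using Finset.induction_on with
    | empty => exact ⟨1, Subgroup.one_mem _, fun j => by simp, fun j => by simp⟩
    | insert i S hi ih =>
      obtain ⟨s, hs, hs1, hs2⟩ := ih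
      obtain ⟨t, ht, ht1, ht2, ht3⟩ := exists_swap_one hF hc0 hc (hP.tsX _ (b i).2 _ (b i).2)
        (hP.tsY _ (f i).2 _ (f i).2) (by rw [hef, if_pos rfl]) (by rw [hfe, if_pos rfl])
      have hb : ∀ j, j ≠ i → (t : Matrix (Fin n) (Fin n) F) *ᵥ (b j : Fin n → F) = b j := by
        intro j hj
        exact ht3 _ (hP.tsX _ (b j).2 _ (b i).2) (by rw [hef, if_neg hj])
      have hf' : ∀ j, j ≠ i → (t : Matrix (Fin n) (Fin n) F) *ᵥ (f j : Fin n → F) = f j := by
        intro j hj
        exact ht3 _ (by rw [hfe, if_neg (Ne.symm hj)]) (hP.tsY _ (f j).2 _ (f i).2)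
      refine ⟨t * s, Subgroup.mul_mem _ ht hs, fun j => ?_, fun j => ?_⟩
      · rw [Units.val_mul, ← Matrix.mulVec_mulVec, hs1]
        by_cases hj : j = i
        · subst hj
          rw [if_neg hi, ht1, if_pos (Finset.mem_insert_self _ _)]
        · by_cases hjS : j ∈ S
          · rw [if_pos hjS, if_pos (Finset.mem_insert_of_mem hjS), Matrix.mulVec_smul, hf' j hj]
          · rw [if_neg hjS, if_neg (by rw [Finset.mem_insert]; (clear * - hj hjS; tauto)), hb j hj]
      · rw [Units.val_mul, ← Matrix.mulVec_mulVec, hs2]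
        by_cases hj : j = i
        · subst hj
          rw [if_neg hi, ht2, if_pos (Finset.mem_insert_self _ _)]
        · by_cases hjS : j ∈ S
          · rw [if_pos hjS, if_pos (Finset.mem_insert_of_mem hjS), Matrix.mulVec_smul, hb j hj]
          · rw [if_neg hjS, if_neg (by rw [Finset.mem_insert]; (clear * - hj hjS; tauto)), hf' j hj]
  obtain ⟨s, hs, hs1, hs2⟩ := hind Finset.univ
  refine ⟨s, hs, fun x hx => ?_, fun y hy => ?_⟩
  · rw [hspan x hx, Matrix.mulVec_sum]
    refine Y.sum_mem fun i _ => ?_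
    rw [Matrix.mulVec_smul, hs1, if_pos (Finset.mem_univ _)]
    exact Y.smul_mem _ (Y.smul_mem _ (f i).2)
  · have hyf : y = ∑ i, hermForm n F q y (b i : Fin n → F) • (f i : Fin n → F) := by
      have : (⟨y, hy⟩ : Y) = ∑ i, hermForm n F q y (b i : Fin n → F) • f i := by
        apply hinj
        rw [map_sum]
        ext j
        rw [Finset.sum_apply, hL]
        simp only [map_smul, Pi.smul_apply, smul_eq_mul, hf, Pi.single_apply]
        simp only [_root_.mul_ite, _root_.mul_one, _root_.MulZeroClass.mul_zero, _root_.Finset.sum_ite_eq, _root_.Finset.mem_univ, ↓ _root_.reduceIte]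
      have h2 := congrArg (fun z : Y => (z : Fin n → F)) this
      simpa only [_root_.AddSubmonoidClass.coe_finsetSum, _root_.SetLike.val_smul] using h2
    rw [hyf, Matrix.mulVec_sum]
    refine X.sum_mem fun i _ => ?_
    rw [Matrix.mulVec_smul, hs2, if_pos (Finset.mem_univ _)]
    exact X.smul_mem _ (X.smul_mem _ (b i).2)

end Cfsg.Agent.H877
end

-- part: H877/UPairMain
section
/-!
# Overgroups of the stabiliser of a totally singular pair, `k ≥ 4`
-/

set_option autoImplicit false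
set_option linter.unusedSectionVars false
set_option linter.unusedSimpArgs false

namespace Cfsg.Agent.H877

open Cfsg Cfsg.Geo Cfsg.Agent.H918 Cfsg.Agent.LieClassical.HermBasic Cfsg.Agent.H930
open scoped Matrix MatrixGroups

variable {F : Type*} [Field F] [Fintype F] {n q : ℕ}
variable {X Y : Submodule F (Fin n → F)} {M : Subgroup (GL (Fin n) F)}

/-- A subspace mapped into the union of two subspaces is mapped into one of them. -/
theorem forall_or {V : Type*} [AddCommGroup V] [Module F V] {X Y Z : Submodule F V} (f : V →ₗ[F] V)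
    (h : ∀ z ∈ Z, f z ∈ X ∨ f z ∈ Y) : (∀ z ∈ Z, f z ∈ X) ∨ ∀ z ∈ Z, f z ∈ Y := by
  by_contra hcon
  push Not at hcon
  obtain ⟨⟨a, ha, haX⟩, b, hb, hbY⟩ := hcon
  have haY : f a ∈ Y := (h a ha).resolve_left haX
  have hbX : f b ∈ X := (h b hb).resolve_right hbY
  rcases h (a + b) (Z.add_mem ha hb) with h1 | h1
  · rw [map_add] at h1
    exact haX (by simpa using X.sub_mem h1 hbX)
  · rw [map_add] at h1
    exact hbY (by simpa using Y.sub_mem h1 haY)

theorem exists_perp_ne_zero (hk : 2 ≤ Module.finrank F Y) (a : Fin n → F) :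
    ∃ y ∈ Y, y ≠ 0 ∧ hermForm n F q y a = 0 := by
  let L : Y →ₗ[F] F :=
    { toFun := fun u => hermForm n F q u a
      map_add' := fun x y => by simp [herm_add_left]
      map_smul' := fun c x => by simp [herm_smul_left] }
  have hdim : 1 ≤ Module.finrank F (LinearMap.ker L) := by
    have h1 := L.finrank_range_add_finrank_ker
    have h2 : Module.finrank F (LinearMap.range L) ≤ 1 := by
      refine (Submodule.finrank_le _).trans ?_
      simp
    omega
  have hnt : Nontrivial (LinearMap.ker L) := Module.nontrivial_of_finrank_pos (by omega : 0 < Module.finrank F (LinearMap.ker L))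
  obtain ⟨x, hx⟩ := exists_ne (0 : LinearMap.ker L)
  refine ⟨(x : Y), (x : Y).2, ?_, ?_⟩
  · intro h0
    exact hx (Subtype.ext (Subtype.ext h0))
  · exact (LinearMap.mem_ker.1 x.2 : _)

/-- `M` contains all elements of `SU_n(q)` interchanging `X` and `Y`. -/
def Swaps (q : ℕ) (X Y : Submodule F (Fin n → F)) (M : Subgroup (GL (Fin n) F)) : Prop :=
  ∀ g ∈ SUg n F q, (∀ x ∈ X, (g : Matrix (Fin n) (Fin n) F) *ᵥ x ∈ Y) →
    (∀ y ∈ Y, (g : Matrix (Fin n) (Fin n) F) *ᵥ y ∈ X) → g ∈ M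

theorem Swaps.symm (h : Swaps q X Y M) : Swaps q Y X M := fun g hg h1 h2 => h g hg h2 h1

/-- One centre in `Y` gives everything. -/
theorem SUg_le_of_center (hF : Fintype.card F = q ^ 2) (h32 : ¬ (n = 3 ∧ q = 2)) (hP : IsPair q X Y)
    (hXY : Module.finrank F X = Module.finrank F Y) (HM : Fixes q X Y M) (HS : Swaps q X Y M)
    (hMS : M ≤ SUg n F q) {w : Fin n → F} (hw : w ∈ Y) (hw0 : w ≠ 0) (hT : TT q M w) : SUg n F q ≤ M := by
  have hY : ∀ y ∈ Y, TT q M y := fun y hy => TT_move hF hP HM hMS hw hy hw0 hT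
  obtain ⟨s, hs, hsX, hsY⟩ := hP.exists_swap hF hXY
  have hsM := HS s hs hsX hsY
  have hX : ∀ x ∈ X, TT q M x := by
    intro x hx
    have h1 := (hY _ (hsX x hx)).conj (M.inv_mem hsM) (isometry_of_mem hMS (M.inv_mem hsM))
    rwa [inv_mulVec] at h1
  exact SUg_le_of_TT hF h32 fun v hv => TT_all hF hP hMS hX hY hv

end Cfsg.Agent.H877
end

-- part: H877/UPairFinal
section
/-!
# The stabiliser of a pair of complementary totally singular subspaces is maximal in `SU_n(q)`
-/

set_option autoImplicit false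
set_option linter.unusedSectionVars false
set_option linter.unusedSimpArgs false

namespace Cfsg.Agent.H877

open Cfsg Cfsg.Geo Cfsg.Agent.H918 Cfsg.Agent.LieClassical.HermBasic Cfsg.Agent.H930
open scoped Matrix MatrixGroups

variable {F : Type*} [Field F] [Fintype F] {n q : ℕ}

section

variable {k : ℕ} {D : Fin 2 → Submodule F (Fin n → F)}

theorem isPair_of_decomp (hD : IsMDecomposition k D) (hts : ∀ i, IsTotallySingularFor (hermForm n F q) (D i)) :
    IsPair q (D 0) (D 1) := by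
  refine ⟨fun u hu v hv => hts 0 u hu v hv, fun u hu v hv => hts 1 u hu v hv, ?_⟩
  refine ⟨hD.indep.pairwiseDisjoint (by decide), ?_⟩
  rw [codisjoint_iff]
  have h := hD.iSup_eq_top
  rw [eq_top_iff] at h ⊢
  refine h.trans (iSup_le fun i => ?_)
  fin_cases i
  · exact le_sup_left
  · exact le_sup_right

theorem map_eq_of_le (hD : IsMDecomposition k D) {g : GL (Fin n) F} {i j : Fin 2}
    (h : ∀ x ∈ D i, (g : Matrix (Fin n) (Fin n) F) *ᵥ x ∈ D j) :
    (D i).map (Matrix.toLin' (g : Matrix (Fin n) (Fin n) F)) = D j := by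
  apply Submodule.eq_of_le_of_finrank_eq
  · rintro _ ⟨x, hx, rfl⟩
    rw [Matrix.toLin'_apply]
    exact h x hx
  · have hinj : Function.Injective (Matrix.toLin' (g : Matrix (Fin n) (Fin n) F)) := by
      intro x y hxy
      rw [Matrix.toLin'_apply, Matrix.toLin'_apply] at hxy
      have := congrArg (fun z => ((g⁻¹ : GL (Fin n) F) : Matrix (Fin n) (Fin n) F) *ᵥ z) hxy
      simpa only [inv_mulVec] using this
    rw [← (Submodule.equivMapOfInjective _ hinj (D i)).finrank_eq, hD.finrank_eq, hD.finrank_eq]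

theorem mem_stab_of_fix (hD : IsMDecomposition k D) {g : GL (Fin n) F}
    (h0 : ∀ x ∈ D 0, (g : Matrix (Fin n) (Fin n) F) *ᵥ x ∈ D 0)
    (h1 : ∀ x ∈ D 1, (g : Matrix (Fin n) (Fin n) F) *ᵥ x ∈ D 1) : g ∈ decompositionStabilizer D := by
  refine ⟨1, fun i => ?_⟩
  fin_cases i
  · exact map_eq_of_le hD h0
  · exact map_eq_of_le hD h1

theorem mem_stab_of_swap (hD : IsMDecomposition k D) {g : GL (Fin n) F}
    (h0 : ∀ x ∈ D 0, (g : Matrix (Fin n) (Fin n) F) *ᵥ x ∈ D 1)
    (h1 : ∀ x ∈ D 1, (g : Matrix (Fin n) (Fin n) F) *ᵥ x ∈ D 0) : g ∈ decompositionStabilizer D := by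
  refine ⟨Equiv.swap 0 1, fun i => ?_⟩
  fin_cases i
  · change _ = D ((Equiv.swap 0 1) 0)
    rw [Equiv.swap_apply_left]
    exact map_eq_of_le hD h0
  · change _ = D ((Equiv.swap 0 1) 1)
    rw [Equiv.swap_apply_right]
    exact map_eq_of_le hD h1

/-- **The stabiliser in `SU_n(q)` of a pair of complementary totally singular subspaces of dimension `k ≥ 4` is
maximal.** -/
theorem pair_maximal_of (hF : Fintype.card F = q ^ 2) (hn : 3 ≤ n) (h32 : ¬ (n = 3 ∧ q = 2))
    (hD : IsMDecomposition k D)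
    (hts : ∀ i, IsTotallySingularFor (hermForm n F q) (D i))
    (hmain : ∀ (X Y : Submodule F (Fin n → F)) (M : Subgroup (GL (Fin n) F)), IsPair q X Y →
      Module.finrank F X = k → Module.finrank F Y = k → Fixes q X Y M → Swaps q X Y M → M ≤ SUg n F q →
      ∀ g ∈ M, ¬ ((∀ x ∈ X, (g : Matrix (Fin n) (Fin n) F) *ᵥ x ∈ X) ∧
        ∀ y ∈ Y, (g : Matrix (Fin n) (Fin n) F) *ᵥ y ∈ Y) →
      ¬ ((∀ x ∈ X, (g : Matrix (Fin n) (Fin n) F) *ᵥ x ∈ Y) ∧
        ∀ y ∈ Y, (g : Matrix (Fin n) (Fin n) F) *ᵥ y ∈ X) → SUg n F q ≤ M) :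
    IsMaximalIn (SUg n F q) (decompositionStabilizer D ⊓ SUg n F q) := by
  refine ⟨lt_of_le_of_ne inf_le_right fun h => ?_, fun M hHM hMS => ?_⟩
  · exact SUg_not_le_decompositionStabilizer hF hn h32 hD (h.ge.trans inf_le_left)
  by_cases hMsub : M ≤ decompositionStabilizer D
  · left
    exact le_antisymm (le_inf hMsub hMS) hHM
  right
  refine le_antisymm hMS ?_
  obtain ⟨g, hgM, hg⟩ := SetLike.not_le_iff_exists.1 hMsub
  refine hmain (D 0) (D 1) M (isPair_of_decomp hD hts) (hD.finrank_eq 0) (hD.finrank_eq 1)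
    (fun g hg h0 h1 => hHM ⟨mem_stab_of_fix hD h0 h1, hg⟩) (fun g hg h0 h1 => hHM ⟨mem_stab_of_swap hD h0 h1, hg⟩)
    hMS g hgM (fun h => hg (mem_stab_of_fix hD h.1 h.2)) (fun h => hg (mem_stab_of_swap hD h.1 h.2))

end

end Cfsg.Agent.H877
end

-- part: H877/UPairThree
section
/-!
# Overgroups of the stabiliser of a totally singular pair, `k = 2` (`q ≥ 4`) and `k ≥ 3`

If `M` contains no transvection with centre in `X ∪ Y` then for `p ∈ Y` the vectors `a` with `SG q M a p` are those of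
`X ∩ p^⊥`. Transporting this by elements of `M`, every image of a vector of `X ∪ Y` under `M` is in `X ∪ Y`.
-/

set_option autoImplicit false
set_option linter.unusedSectionVars false
set_option linter.unusedSimpArgs false

namespace Cfsg.Agent.H877

open Cfsg Cfsg.Geo Cfsg.Agent.H918 Cfsg.Agent.LieClassical.HermBasic Cfsg.Agent.H930
open scoped Matrix MatrixGroups

variable {F : Type*} [Field F] [Fintype F] {n q : ℕ}
variable {X Y : Submodule F (Fin n → F)} {M : Subgroup (GL (Fin n) F)}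

theorem SG.symm (hF : Fintype.card F = q ^ 2) {u w : Fin n → F} (h : SG q M u w) : SG q M w u := by
  refine ⟨h.2.1, h.1, herm_eq_zero_swap hF h.2.2.1, fun l => ?_⟩
  obtain ⟨t, ht, htx⟩ := h.2.2.2 (-l ^ q)
  refine ⟨t, ht, fun x => ?_⟩
  rw [htx, neg_pow_q hF, pow_q_pow_q hF]
  ext i
  simp only [Pi.add_apply, Pi.sub_apply, Pi.smul_apply, smul_eq_mul]
  ring

theorem SG.add_left (hF : Fintype.card F = q ^ 2) {a b w : Fin n → F} (ha : SG q M a w) (hb : SG q M b w)
    (hab : hermForm n F q a b = 0) : SG q M (a + b) w := by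
  have hba : hermForm n F q b a = 0 := herm_eq_zero_swap hF hab
  have hwb : hermForm n F q w b = 0 := herm_eq_zero_swap hF hb.2.2.1
  have hwa : hermForm n F q w a = 0 := herm_eq_zero_swap hF ha.2.2.1
  refine ⟨?_, ha.2.1, ?_, fun l => ?_⟩
  · rw [herm_add_left, herm_add_right hF, herm_add_right hF, ha.1, hb.1, hab, hba]
    ring
  · rw [herm_add_left, ha.2.2.1, hb.2.2.1, add_zero]
  · obtain ⟨A, hA, hAx⟩ := ha.2.2.2 l
    obtain ⟨B, hB, hBx⟩ := hb.2.2.2 l
    refine ⟨A * B, M.mul_mem hA hB, fun x => ?_⟩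
    rw [Units.val_mul, ← Matrix.mulVec_mulVec, hAx, hBx]
    simp only [herm_add_left, herm_sub_left, herm_smul_left, herm_add_right hF, ha.2.1, hb.2.2.1, ha.2.2.1, hba,
      hwa, hwb, mul_zero, add_zero, sub_zero]
    ext i
    simp only [Pi.add_apply, Pi.sub_apply, Pi.smul_apply, smul_eq_mul]
    ring

theorem SG.sub_left (hF : Fintype.card F = q ^ 2) {a b w : Fin n → F} (ha : SG q M a w) (hb : SG q M b w)
    (hab : hermForm n F q a b = 0) : SG q M (a - b) w := by
  have h1 := ha.add_left hF (hb.smul_left (-1)) (by rw [herm_smul_right, hab, mul_zero])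
  rwa [neg_one_smul, ← sub_eq_add_neg] at h1

theorem SG.of_smul_left {a w : Fin n → F} {c : F} (hc : c ≠ 0) (h : SG q M (c • a) w) :
    SG q M a w := by
  have := h.smul_left c⁻¹
  rwa [smul_smul, inv_mul_cancel₀ hc, one_smul] at this

/-- A degenerate Siegel family is a family of transvections. -/
theorem TT_of_SG_self (hF : Fintype.card F = q ^ 2) {w : Fin n → F} {c : F} (hc : c ≠ 0)
    (h : SG q M (c • w) w) : TT q M w := by
  have h' := h.of_smul_left hc
  refine ⟨h'.1, fun d hd => ?_⟩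
  obtain ⟨c0, hc00, hc0⟩ := exists_trace_zero_ne hF
  have hdq : d ^ q = -d := by linear_combination hd
  have hc0q : c0 ^ q = -c0 := by linear_combination hc0
  obtain ⟨t, ht⟩ := exists_trace_eq hF (c := d / c0) (by rw [div_pow, hdq, hc0q, neg_div_neg_eq])
  obtain ⟨A, hA, hAx⟩ := h'.2.2.2 (t * c0)
  refine ⟨A, hA, fun x => ?_⟩
  have e3 : (t + t ^ q) * c0 = d := by rw [ht]; field_simp
  rw [hAx, mul_pow, hc0q]
  ext i
  simp only [Pi.add_apply, Pi.sub_apply, Pi.smul_apply, smul_eq_mul]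
  linear_combination (hermForm n F q x w * w i) * e3

/-- No transvections with centre in `X ∪ Y`. -/
structure NoTT (q : ℕ) (X Y : Submodule F (Fin n → F)) (M : Subgroup (GL (Fin n) F)) : Prop where
  left : ∀ w ∈ X, w ≠ 0 → ¬ TT q M w
  right : ∀ w ∈ Y, w ≠ 0 → ¬ TT q M w

theorem NoTT.symm (h : NoTT q X Y M) : NoTT q Y X M := ⟨h.right, h.left⟩

/-- For `p ∈ Y` the Siegel partners of `p` are in `X`. -/
theorem mem_of_SG (hF : Fintype.card F = q ^ 2) (hP : IsPair q X Y) (HM : Fixes q X Y M) (hN : NoTT q X Y M)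
    {p a : Fin n → F} (hp : p ∈ Y) (hp0 : p ≠ 0) (h : SG q M a p) : a ∈ X := by
  have h1 : ∀ u ∈ X, hermForm n F q u p = 0 → hermForm n F q a u = 0 := by
    intro u hu hup
    by_contra hne
    exact hN.right p hp hp0 (TT_of_SG hF h (SG_std hF hP HM hu hp hup) hne)
  obtain ⟨ax, hax, ay, hay, rfl⟩ := hP.decomp a
  have h2 : ∃ c : F, ay = c • p := by
    by_contra hcon
    push Not at hcon
    obtain ⟨u, hu, hup, huay⟩ := hP.exists_perp hF hp hay hcon
    have h3 := h1 u hu hup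
    rw [herm_add_left, hP.tsX ax hax u hu, zero_add] at h3
    exact huay (herm_eq_zero_swap hF h3)
  obtain ⟨c, rfl⟩ := h2
  by_cases hc : c = 0
  · rw [hc, zero_smul, add_zero]
    exact hax
  exfalso
  have h3 : hermForm n F q ax p = 0 := by
    have := h.2.2.1
    rwa [herm_add_left, herm_smul_left, hP.tsY p hp p hp, mul_zero, add_zero] at this
  have h4 := SG_std hF hP HM hax hp h3
  have h5 := h.sub_left hF h4 (h1 ax hax h3)
  rw [add_sub_cancel_left] at h5
  exact hN.right p hp hp0 (TT_of_SG_self hF hc h5)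

/-- Images of vectors of `Y` or of `X` under `M`. -/
def Img (X Y : Submodule F (Fin n → F)) (M : Subgroup (GL (Fin n) F)) (p : Fin n → F) : Prop :=
  ∃ m ∈ M, ∃ w : Fin n → F, (w ∈ X ∨ w ∈ Y) ∧ w ≠ 0 ∧ (m : Matrix (Fin n) (Fin n) F) *ᵥ w = p

theorem Img.symm {p : Fin n → F} (h : Img X Y M p) : Img Y X M p := by
  obtain ⟨m, hm, w, hw, hw0, h⟩ := h
  exact ⟨m, hm, w, hw.symm, hw0, h⟩

theorem Img.conj {p : Fin n → F} (h : Img X Y M p) {g : GL (Fin n) F} (hg : g ∈ M) :
    Img X Y M ((g : Matrix (Fin n) (Fin n) F) *ᵥ p) := by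
  obtain ⟨m, hm, w, hw, hw0, h⟩ := h
  exact ⟨g * m, M.mul_mem hg hm, w, hw, hw0, by rw [← h, Units.val_mul, Matrix.mulVec_mulVec]⟩

theorem Img.not_TT (hMS : M ≤ SUg n F q) (hN : NoTT q X Y M) {p : Fin n → F}
    (h : Img X Y M p) : ¬ TT q M p := by
  obtain ⟨m, hm, w, hw, hw0, rfl⟩ := h
  intro hT
  have h1 := hT.conj (M.inv_mem hm) (isometry_of_mem hMS (M.inv_mem hm))
  rw [inv_mulVec] at h1
  rcases hw with hw | hw
  · exact hN.left w hw hw0 h1
  · exact hN.right w hw hw0 h1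

/-- Partners of a mixed image are orthogonal to the orthogonal pairs fixing it. -/
theorem perp_of_SG (hF : Fintype.card F = q ^ 2) (hP : IsPair q X Y) (HM : Fixes q X Y M) (hN : NoTT q X Y M)
    (hMS : M ≤ SUg n F q) {x y a u w : Fin n → F} (hx : x ∈ X) (hy : y ∈ Y) (hx0 : x ≠ 0) (hy0 : y ≠ 0)
    (hI : Img X Y M (x + y)) (ha : SG q M a (x + y)) (hu : u ∈ X) (hw : w ∈ Y) (hu0 : u ≠ 0) (hw0 : w ≠ 0)
    (huw : hermForm n F q u w = 0) (hyu : hermForm n F q y u = 0) (hxw : hermForm n F q x w = 0) :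
    hermForm n F q a w = 0 ∧ hermForm n F q a u = 0 := by
  have hTT := hI.not_TT hMS hN
  have hstd := SG_std hF hP HM hu hw huw
  -- the elements fixing `x + y`
  have hfix : ∀ l : F, SG q M (a + (l * hermForm n F q a w) • u - (l ^ q * hermForm n F q a u) • w) (x + y) := by
    intro l
    obtain ⟨g, hg, hgx⟩ := hstd.2.2.2 l
    have h1 := ha.conj hg (isometry_of_mem hMS hg)
    have h2 : (g : Matrix (Fin n) (Fin n) F) *ᵥ (x + y) = x + y := by
      rw [hgx, herm_add_left, herm_add_left, hxw, hyu, hP.tsX x hx u hu, hP.tsY y hy w hw]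
      simp
    rw [h2, hgx] at h1
    exact h1
  have hz : ∀ l : F, l ^ q * hermForm n F q a w ^ q * hermForm n F q a u =
      l * hermForm n F q a u ^ q * hermForm n F q a w := by
    intro l
    by_contra hne
    refine hTT (TT_of_SG hF ha (hfix l) ?_)
    rw [herm_sub_right hF, herm_add_right hF, ha.1, herm_smul_right, herm_smul_right, mul_pow, mul_pow,
      pow_q_pow_q hF, zero_add]
    exact sub_ne_zero.2 hne
  -- one of the two values is zero
  have h0 : hermForm n F q a w = 0 ∨ hermForm n F q a u = 0 := by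
    by_contra hcon
    push Not at hcon
    obtain ⟨η, hη⟩ := exists_not_fixed hF
    have e1 := hz 1
    have e2 := hz η
    rw [one_pow, one_mul, one_mul] at e1
    apply hη
    have h3 : hermForm n F q a w ^ q * hermForm n F q a u ≠ 0 :=
      mul_ne_zero (fun h => hcon.1 ((pow_q_eq_zero hF).1 h)) hcon.2
    apply mul_right_cancel₀ h3
    linear_combination e2 - η * e1
  have hfix1 := hfix 1
  rcases h0 with h0 | h0
  · refine ⟨h0, ?_⟩
    by_contra hne
    rw [h0, mul_zero, zero_smul, add_zero, one_pow, one_mul] at hfix1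
    have h1 := ha.sub_left hF hfix1 (by
      rw [herm_sub_right hF, ha.1, herm_smul_right, h0]
      ring)
    rw [sub_sub_cancel] at h1
    have h2 := (h1.of_smul_left hne).symm hF
    exact hy0 (hP.eq_zero (by
      have h3 := mem_of_SG hF hP HM hN hw hw0 h2
      simpa using X.sub_mem h3 hx) hy)
  · refine ⟨?_, h0⟩
    by_contra hne
    rw [h0, mul_zero, zero_smul, sub_zero, one_mul] at hfix1
    have h1 := hfix1.sub_left hF ha (by
      rw [herm_add_left, ha.1, herm_smul_left, herm_eq_zero_swap hF h0]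
      ring)
    rw [add_sub_cancel_left] at h1
    have h2 := (h1.of_smul_left hne).symm hF
    exact hx0 (hP.eq_zero hx (by
      have h3 := mem_of_SG hF hP.symm HM.symm hN.symm hu hu0 h2
      simpa using Y.sub_mem h3 hy))

/-- Vectors of `Y` orthogonal to two given vectors, `k ≥ 3`. -/
theorem exists_perp_two (hk : 3 ≤ Module.finrank F Y) (a b : Fin n → F) :
    ∃ z ∈ Y, z ≠ 0 ∧ hermForm n F q z a = 0 ∧ hermForm n F q z b = 0 := by
  let L : Y →ₗ[F] (F × F) :=
    { toFun := fun u => (hermForm n F q u a, hermForm n F q u b)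
      map_add' := fun x y => by simp [herm_add_left]
      map_smul' := fun c x => by simp [herm_smul_left] }
  have hdim : 1 ≤ Module.finrank F (LinearMap.ker L) := by
    have h1 := L.finrank_range_add_finrank_ker
    have h2 : Module.finrank F (LinearMap.range L) ≤ 2 := by
      refine (Submodule.finrank_le _).trans ?_
      simp
    omega
  have hnt : Nontrivial (LinearMap.ker L) := Module.nontrivial_of_finrank_pos (by omega : 0 < Module.finrank F (LinearMap.ker L))
  obtain ⟨x, hx⟩ := exists_ne (0 : LinearMap.ker L)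
  have hx1 := x.2
  rw [LinearMap.mem_ker] at hx1
  refine ⟨(x : Y), (x : Y).2, ?_, congrArg Prod.fst hx1, congrArg Prod.snd hx1⟩
  intro h0
  exact hx (Subtype.ext (Subtype.ext h0))

/-- A two-dimensional space of partners. -/
theorem exists_indep_partners (hF : Fintype.card F = q ^ 2) (hP : IsPair q X Y) (HM : Fixes q X Y M)
    (hk : 3 ≤ Module.finrank F X) {w : Fin n → F} (hw : w ∈ Y) :
    ∃ a b : Fin n → F, LinearIndependent F ![a, b] ∧ SG q M a w ∧ SG q M b w := by
  let L : X →ₗ[F] F :=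
    { toFun := fun u => hermForm n F q u w
      map_add' := fun x y => by simp [herm_add_left]
      map_smul' := fun c x => by simp [herm_smul_left] }
  have hdim : 2 ≤ Module.finrank F (LinearMap.ker L) := by
    have h1 := L.finrank_range_add_finrank_ker
    have h2 : Module.finrank F (LinearMap.range L) ≤ 1 := by
      refine (Submodule.finrank_le _).trans ?_
      simp
    omega
  have hnt : Nontrivial (LinearMap.ker L) := Module.nontrivial_of_finrank_pos (by omega : 0 < Module.finrank F (LinearMap.ker L))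
  obtain ⟨x, hx⟩ := exists_ne (0 : LinearMap.ker L)
  obtain ⟨y, hxy⟩ := exists_linearIndependent_pair_of_one_lt_finrank (R := F) (M := LinearMap.ker L) (by omega) hx
  have h1 := (hxy.map' (LinearMap.ker L).subtype (Submodule.ker_subtype _)).map' X.subtype (Submodule.ker_subtype _)
  have e : X.subtype ∘ (LinearMap.ker L).subtype ∘ ![x, y] = ![((x : X) : Fin n → F), ((y : X) : Fin n → F)] := by
    ext i
    fin_cases i <;> rfl
  rw [e] at h1
  exact ⟨_, _, h1, SG_std hF hP HM (x : X).2 hw (LinearMap.mem_ker.1 x.2 : _),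
    SG_std hF hP HM (y : X).2 hw (LinearMap.mem_ker.1 y.2 : _)⟩

/-- **No mixed images, `k ≥ 3`.** -/
theorem no_mixed_three (hF : Fintype.card F = q ^ 2) (hP : IsPair q X Y) (HM : Fixes q X Y M) (hN : NoTT q X Y M)
    (hMS : M ≤ SUg n F q) (hX : 3 ≤ Module.finrank F X) (hY : 3 ≤ Module.finrank F Y) {x y w : Fin n → F}
    (hx : x ∈ X) (hy : y ∈ Y) (hx0 : x ≠ 0) (hy0 : y ≠ 0) (hw : w ∈ Y) (hw0 : w ≠ 0) {m : GL (Fin n) F}
    (hm : m ∈ M) (hmw : (m : Matrix (Fin n) (Fin n) F) *ᵥ w = x + y) : False := by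
  have hI : Img X Y M (x + y) := ⟨m, hm, w, Or.inr hw, hw0, hmw⟩
  -- partners are in `⟨x, y⟩`
  have key : ∀ a, SG q M a (x + y) → ∃ s t : F, a = s • x + t • y := by
    intro a ha
    have h1 : ∀ u ∈ X, hermForm n F q y u = 0 → hermForm n F q a u = 0 := by
      intro u hu hyu
      by_cases hu0 : u = 0
      · rw [hu0, herm_zero_right hF]
      obtain ⟨z, hz, hz0, hzx, hzu⟩ := exists_perp_two (q := q) hY x u
      exact (perp_of_SG hF hP HM hN hMS hx hy hx0 hy0 hI ha hu hz hu0 hz0 (herm_eq_zero_swap hF hzu) hyu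
        (herm_eq_zero_swap hF hzx)).2
    have h2 : ∀ v ∈ Y, hermForm n F q x v = 0 → hermForm n F q a v = 0 := by
      intro v hv hxv
      by_cases hv0 : v = 0
      · rw [hv0, herm_zero_right hF]
      obtain ⟨z, hz, hz0, hzy, hzv⟩ := exists_perp_two (q := q) hX y v
      exact (perp_of_SG hF hP HM hN hMS hx hy hx0 hy0 hI ha hz hv hz0 hv0 hzv (herm_eq_zero_swap hF hzy)
        hxv).1
    obtain ⟨ax, hax, ay, hay, rfl⟩ := hP.decomp a
    have h3 : ∃ t : F, ay = t • y := by
      by_contra hcon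
      push Not at hcon
      obtain ⟨u, hu, huy, huay⟩ := hP.exists_perp hF hy hay hcon
      have h4 := h1 u hu (herm_eq_zero_swap hF huy)
      rw [herm_add_left, hP.tsX ax hax u hu, zero_add] at h4
      exact huay (herm_eq_zero_swap hF h4)
    have h4 : ∃ s : F, ax = s • x := by
      by_contra hcon
      push Not at hcon
      obtain ⟨v, hv, hvx, hvax⟩ := hP.symm.exists_perp hF hx hax hcon
      have h4 := h2 v hv (herm_eq_zero_swap hF hvx)
      rw [herm_add_left, hP.tsY ay hay v hv, add_zero] at h4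
      exact hvax (herm_eq_zero_swap hF h4)
    obtain ⟨t, rfl⟩ := h3
    obtain ⟨s, rfl⟩ := h4
    exact ⟨s, t, rfl⟩
  obtain ⟨a, b, hab, ha, hb⟩ := exists_indep_partners hF hP HM hX hw
  have ha' := ha.conj hm (isometry_of_mem hMS hm)
  have hb' := hb.conj hm (isometry_of_mem hMS hm)
  rw [hmw] at ha' hb'
  have hTT := hI.not_TT hMS hN
  obtain ⟨s, t, hst⟩ := key _ ha'
  obtain ⟨s', t', hst'⟩ := key _ hb'
  have h0 : hermForm n F q ((m : Matrix (Fin n) (Fin n) F) *ᵥ a) ((m : Matrix (Fin n) (Fin n) F) *ᵥ b) = 0 := by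
    by_contra hne
    exact hTT (TT_of_SG hF ha' hb' hne)
  rw [LinearIndependent.pair_iff] at hab
  -- a combination equal to a multiple of `x + y`
  have hcomb : ∀ c d : F, SG q M (c • ((m : Matrix (Fin n) (Fin n) F) *ᵥ a) +
      d • ((m : Matrix (Fin n) (Fin n) F) *ᵥ b)) (x + y) := by
    intro c d
    exact (ha'.smul_left c).add_left hF (hb'.smul_left d) (by rw [herm_smul_left, herm_smul_right, h0]; ring)
  by_cases hd : s - t = 0
  · have hs : s ≠ 0 := by
      rintro rfl
      have ht : t = 0 := by linear_combination -hd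
      rw [ht, zero_smul, zero_smul, add_zero] at hst
      have h1 : a = 0 := by
        have := inv_mulVec m a
        rw [hst, Matrix.mulVec_zero] at this
        exact this.symm
      have := hab 1 0 (by rw [h1]; simp)
      exact one_ne_zero this.1
    have ht : t = s := by linear_combination -hd
    rw [hst, ht, ← smul_add] at ha'
    exact hTT (TT_of_SG_self hF hs ha')
  · have h1 := hcomb (s' - t') (-(s - t))
    rw [hst, hst'] at h1
    have e : (s' - t') • (s • x + t • y) + (-(s - t)) • (s' • x + t' • y) = (s' * t - s * t') • (x + y) := by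
      ext i
      simp only [Pi.add_apply, Pi.smul_apply, smul_eq_mul]
      ring
    rw [e] at h1
    by_cases hdet : s' * t - s * t' = 0
    · -- then `a, b` are dependent
      have h2 : (s' - t') • a + (-(s - t)) • b = 0 := by
        have h3 : (m : Matrix (Fin n) (Fin n) F) *ᵥ ((s' - t') • a + (-(s - t)) • b) = 0 := by
          rw [Matrix.mulVec_add, Matrix.mulVec_smul, Matrix.mulVec_smul, hst, hst', e, hdet, zero_smul]
        have := inv_mulVec m ((s' - t') • a + (-(s - t)) • b)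
        rw [h3, Matrix.mulVec_zero] at this
        exact this.symm
      exact hd (neg_eq_zero.1 (hab _ _ h2).2)
    · exact hTT (TT_of_SG_self hF hdet h1)

end Cfsg.Agent.H877
end

-- part: H877/UPairTwo
section
/-!
# The stabiliser of a totally singular pair is maximal in `SU_2k(q)`, all `k ≥ 2` (`q ≥ 4` if `k = 2`)
-/

set_option autoImplicit false
set_option linter.unusedSectionVars false
set_option linter.unusedSimpArgs false

namespace Cfsg.Agent.H877

open Cfsg Cfsg.Geo Cfsg.Agent.H918 Cfsg.Agent.LieClassical.HermBasic Cfsg.Agent.H930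
open scoped Matrix MatrixGroups

variable {F : Type*} [Field F] [Fintype F] {n q : ℕ}
variable {X Y : Submodule F (Fin n → F)} {M : Subgroup (GL (Fin n) F)}

/-- Diagonal elements on a hyperbolic pair. -/
theorem exists_torus (hF : Fintype.card F = q ^ 2) {d : F} (hd0 : d ≠ 0) (hd : d ^ q = d)
    {e f : Fin n → F} (he : hermForm n F q e e = 0) (hf : hermForm n F q f f = 0)
    (hef : hermForm n F q e f = 1) (hfe : hermForm n F q f e = 1) :
    ∃ s ∈ SUg n F q, (s : Matrix (Fin n) (Fin n) F) *ᵥ e = d • e ∧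
      (s : Matrix (Fin n) (Fin n) F) *ᵥ f = d⁻¹ • f ∧
      ∀ x, hermForm n F q x e = 0 → hermForm n F q x f = 0 → (s : Matrix (Fin n) (Fin n) F) *ᵥ x = x := by
  obtain ⟨c, hc0, hc⟩ := exists_trace_zero_ne hF
  obtain ⟨s, hs, hs1, hs2, hs3⟩ := exists_swap_one hF hc0 hc he hf hef hfe
  have hc' : -(d * c) + (-(d * c)) ^ q = 0 := by
    rw [neg_pow_q hF, mul_pow, hd]
    linear_combination -d * hc
  obtain ⟨t, ht, ht1, ht2, ht3⟩ := exists_swap_one hF (neg_ne_zero.2 (mul_ne_zero hd0 hc0)) hc' he hf hef hfe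
  refine ⟨t * s, Subgroup.mul_mem _ ht hs, ?_, ?_, ?_⟩
  · rw [Units.val_mul, ← Matrix.mulVec_mulVec, hs1, Matrix.mulVec_smul, ht2, smul_smul]
    congr 1
    field_simp
  · rw [Units.val_mul, ← Matrix.mulVec_mulVec, hs2, Matrix.mulVec_smul, ht1, smul_smul]
    congr 1
    field_simp
  · intro x h1 h2
    rw [Units.val_mul, ← Matrix.mulVec_mulVec, hs3 x h1 h2, ht3 x h1 h2]

theorem exists_fixed_elt (hF : Fintype.card F = q ^ 2) (hq : 4 ≤ q) :
    ∃ d : F, d ^ q = d ∧ d ≠ 0 ∧ d ≠ 1 ∧ d⁻¹ - d ≠ 0 := by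
  classical
  have h1 := card_fixed hF
  rw [Nat.card_eq_fintype_card, Fintype.card_subtype] at h1
  obtain ⟨d, hd, hd'⟩ := Finset.exists_mem_notMem_of_card_lt_card (s := ({0, 1, -1} : Finset F))
    (t := Finset.univ.filter fun x : F => x ^ q = x) (by
      rw [h1]
      have : ({0, 1, -1} : Finset F).card ≤ 3 := Finset.card_le_three
      omega)
  rw [Finset.mem_filter] at hd
  simp only [Finset.mem_insert, Finset.mem_singleton, not_or] at hd'
  refine ⟨d, hd.2, hd'.1, hd'.2.1, ?_⟩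
  intro h
  have h2 : (d - 1) * (d + 1) = 0 := by
    have := hd'.1
    field_simp at h
    linear_combination -h
  rcases mul_eq_zero.1 h2 with h3 | h3
  · exact hd'.2.1 (by linear_combination h3)
  · exact hd'.2.2 (by linear_combination h3)

theorem exists_coords {V : Type*} [AddCommGroup V] [Module F V] [FiniteDimensional F V] {X : Submodule F V}
    (hX : Module.finrank F X = 2) {x a : V} (hx : x ∈ X) (ha : a ∈ X) (hxa : LinearIndependent F ![x, a])
    {v : V} (hv : v ∈ X) : ∃ s t : F, v = s • x + t • a := by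
  have h1 : Submodule.span F {x, a} ≤ X := by
    rw [Submodule.span_le]
    rintro z (rfl | rfl)
    · exact hx
    · exact ha
  have h2 : Module.finrank F (Submodule.span F {x, a}) = 2 := by
    have := finrank_span_eq_card hxa
    rw [Matrix.range_cons_cons_empty] at this
    simpa using this
  have h3 := Submodule.eq_of_le_of_finrank_eq h1 (by rw [h2, hX])
  rw [← h3] at hv
  obtain ⟨s, t, h⟩ := Submodule.mem_span_pair.1 hv
  exact ⟨s, t, h.symm⟩

/-- Every non-zero vector of `X ∪ Y` has a partner. -/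
theorem exists_partner (hF : Fintype.card F = q ^ 2) (hP : IsPair q X Y) (HM : Fixes q X Y M)
    (hX : 2 ≤ Module.finrank F X) (hY : 2 ≤ Module.finrank F Y) {w : Fin n → F} (hw : w ∈ X ∨ w ∈ Y) :
    ∃ a, a ≠ 0 ∧ SG q M a w := by
  rcases hw with hw | hw
  · obtain ⟨a, ha, ha0, haw⟩ := exists_perp_ne_zero (q := q) hY w
    exact ⟨a, ha0, (SG_std hF hP HM hw ha (herm_eq_zero_swap hF haw)).symm hF⟩
  · obtain ⟨a, ha, ha0, haw⟩ := exists_perp_ne_zero (q := q) hX w
    exact ⟨a, ha0, SG_std hF hP HM ha hw haw⟩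

theorem Img.exists_partner (hF : Fintype.card F = q ^ 2) (hP : IsPair q X Y) (HM : Fixes q X Y M)
    (hMS : M ≤ SUg n F q)
    (hX : 2 ≤ Module.finrank F X) (hY : 2 ≤ Module.finrank F Y) {p : Fin n → F} (h : Img X Y M p) :
    ∃ a, a ≠ 0 ∧ SG q M a p := by
  obtain ⟨m, hm, w, hw, hw0, rfl⟩ := h
  obtain ⟨a, ha0, ha⟩ := H877.exists_partner hF hP HM hX hY hw
  refine ⟨_, ?_, ha.conj hm (isometry_of_mem hMS hm)⟩
  intro h0
  apply ha0
  have := inv_mulVec m a
  rw [h0, Matrix.mulVec_zero] at this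
  exact this.symm

/-- No mixed images with non-orthogonal components, `k = 2`, `q ≥ 4`. -/
theorem no_mixed_two_a (hF : Fintype.card F = q ^ 2) (hP : IsPair q X Y) (HM : Fixes q X Y M) (hN : NoTT q X Y M)
    (hMS : M ≤ SUg n F q) (hX : Module.finrank F X = 2) (hY : Module.finrank F Y = 2) (hq : 4 ≤ q)
    {x y : Fin n → F} (hx : x ∈ X) (hy : y ∈ Y) (hxy : hermForm n F q x y ≠ 0)
    (hI : Img X Y M (x + y)) : False := by
  have hx0 : x ≠ 0 := by
    rintro rfl
    exact hxy (herm_zero_left y)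
  have hy0 : y ≠ 0 := by
    rintro rfl
    exact hxy (herm_zero_right hF x)
  have hyx : hermForm n F q y x ≠ 0 := fun h => hxy (herm_eq_zero_swap hF h)
  have hTT := hI.not_TT hMS hN
  obtain ⟨s, hs0, hs⟩ := hI.exists_partner hF hP HM hMS (by omega) (by omega)
  -- the hyperbolic pair `a, b`
  obtain ⟨a, ha, ha0, hay⟩ := exists_perp_ne_zero (q := q) (Y := X) (by omega) y
  obtain ⟨z, hz, haz⟩ := hP.exists_ne hF ha ha0
  obtain ⟨b, hb, hbx, hab⟩ : ∃ b ∈ Y, hermForm n F q b x = 0 ∧ hermForm n F q a b = 1 := by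
    set b0 : Fin n → F := z - (hermForm n F q z x / hermForm n F q y x) • y with hb0
    have h1 : hermForm n F q b0 x = 0 := by
      rw [hb0, herm_sub_left, herm_smul_left]
      field_simp
      ring
    have h2 : hermForm n F q a b0 = hermForm n F q a z := by
      rw [hb0, herm_sub_right hF, herm_smul_right, hay, mul_zero, sub_zero]
    refine ⟨((hermForm n F q a z)⁻¹) ^ q • b0, Y.smul_mem _ (Y.sub_mem hz (Y.smul_mem _ hy)), ?_, ?_⟩
    · rw [herm_smul_left, h1, mul_zero]
    · rw [herm_smul_right, pow_q_pow_q hF, h2, inv_mul_cancel₀ haz]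
  have hba : hermForm n F q b a = 1 := by rw [herm_swap hF a b, hab, one_pow]
  have hxb : hermForm n F q x b = 0 := herm_eq_zero_swap hF hbx
  have hya : hermForm n F q y a = 0 := herm_eq_zero_swap hF hay
  have hxx := hP.tsX x hx x hx
  have hxa := hP.tsX x hx a ha
  have hax := hP.tsX a ha x hx
  have haa := hP.tsX a ha a ha
  have hyy := hP.tsY y hy y hy
  have hyb := hP.tsY y hy b hb
  have hby := hP.tsY b hb y hy
  have hbb := hP.tsY b hb b hb
  have hindX : LinearIndependent F ![x, a] := by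
    rw [LinearIndependent.pair_iff]
    intro c d h
    have h1 := congrArg (fun v => hermForm n F q v y) h
    simp only [herm_add_left, herm_smul_left, hay, mul_zero, add_zero, herm_zero_left] at h1
    have hc : c = 0 := (mul_eq_zero.1 h1).resolve_right hxy
    refine ⟨hc, ?_⟩
    rw [hc, zero_smul, zero_add] at h
    exact (smul_eq_zero.1 h).resolve_right ha0
  have hindY : LinearIndependent F ![y, b] := by
    rw [LinearIndependent.pair_iff]
    intro c d h
    have h1 := congrArg (fun v => hermForm n F q v x) h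
    simp only [herm_add_left, herm_smul_left, hbx, mul_zero, add_zero, herm_zero_left] at h1
    have hc : c = 0 := (mul_eq_zero.1 h1).resolve_right hyx
    refine ⟨hc, ?_⟩
    rw [hc, zero_smul, zero_add] at h
    have h2 := congrArg (fun v => hermForm n F q v a) h
    simp only [herm_smul_left, hba, mul_one, herm_zero_left] at h2
    exact h2
  -- the coordinates of the partner
  obtain ⟨sx, hsx, sy, hsy, hsxy⟩ := hP.decomp s
  obtain ⟨γ, α, hγ⟩ := exists_coords hX hx ha hindX hsx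
  obtain ⟨κ, β, hκ⟩ := exists_coords hY hy hb hindY hsy
  have hp0 : hermForm n F q x y + hermForm n F q y x = 0 := by
    have := hs.2.1
    rw [herm_add_left, herm_add_right hF, herm_add_right hF, hxx, hyy] at this
    linear_combination this
  have hκγ : κ = γ := by
    have h1 := hs.2.2.1
    rw [hsxy, hγ, hκ] at h1
    simp only [herm_add_left, herm_add_right hF, herm_smul_left, hxx, hyy, hax, hay, hby, hbx, mul_zero, add_zero,
      zero_add] at h1
    have h2 : (γ - κ) * hermForm n F q x y = 0 := by linear_combination h1 - κ * hp0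
    have := (mul_eq_zero.1 h2).resolve_right hxy
    linear_combination -this
  have hseq : s = γ • (x + y) + α • a + β • b := by
    rw [hsxy, hγ, hκ, hκγ]
    ext i
    simp only [Pi.add_apply, Pi.smul_apply, smul_eq_mul]
    ring
  have hpp := hs.2.1
  have hpa : hermForm n F q (x + y) a = 0 := by rw [herm_add_left, hxa, hya, add_zero]
  have hpb : hermForm n F q (x + y) b = 0 := by rw [herm_add_left, hxb, hyb, add_zero]
  have hap : hermForm n F q a (x + y) = 0 := herm_eq_zero_swap hF hpa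
  have hbp : hermForm n F q b (x + y) = 0 := herm_eq_zero_swap hF hpb
  -- the torus
  have htor : ∀ d : F, d ≠ 0 → d ^ q = d → SG q M (γ • (x + y) + (d * α) • a + (d⁻¹ * β) • b) (x + y) := by
    intro d hd0 hd
    obtain ⟨t, ht, ht1, ht2, ht3⟩ := exists_torus hF hd0 hd haa hbb hab hba
    have htx : (t : Matrix (Fin n) (Fin n) F) *ᵥ x = x := ht3 x hxa hxb
    have hty : (t : Matrix (Fin n) (Fin n) F) *ᵥ y = y := ht3 y hya hyb
    have htM : t ∈ M := by
      refine HM t ht (fun v hv => ?_) (fun v hv => ?_)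
      · obtain ⟨c, e, rfl⟩ := exists_coords hX hx ha hindX hv
        rw [Matrix.mulVec_add, Matrix.mulVec_smul, Matrix.mulVec_smul, htx, ht1]
        exact X.add_mem (X.smul_mem _ hx) (X.smul_mem _ (X.smul_mem _ ha))
      · obtain ⟨c, e, rfl⟩ := exists_coords hY hy hb hindY hv
        rw [Matrix.mulVec_add, Matrix.mulVec_smul, Matrix.mulVec_smul, hty, ht2]
        exact Y.add_mem (Y.smul_mem _ hy) (Y.smul_mem _ (Y.smul_mem _ hb))
    have h1 := hs.conj htM (isometry_of_mem hMS htM)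
    rw [Matrix.mulVec_add, htx, hty, hseq, Matrix.mulVec_add, Matrix.mulVec_add, Matrix.mulVec_smul,
      Matrix.mulVec_smul, Matrix.mulVec_smul, Matrix.mulVec_add, htx, hty, ht1, ht2, smul_smul, smul_smul,
      mul_comm α, mul_comm β] at h1
    exact h1
  have hrel : ∀ d : F, d ≠ 0 → d ^ q = d → hermForm n F q s (γ • (x + y) + (d * α) • a + (d⁻¹ * β) • b) = 0 := by
    intro d hd0 hd
    by_contra hne
    exact hTT (TT_of_SG hF hs (htor d hd0 hd) hne)
  have hrel' : ∀ d : F, d ≠ 0 → d ^ q = d → α * (d⁻¹ * β ^ q) + β * (d * α ^ q) = 0 := by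
    intro d hd0 hd
    have h1 := hrel d hd0 hd
    have hdi : d⁻¹ ^ q = d⁻¹ := by rw [inv_pow, hd]
    rw [hseq] at h1
    simp only [herm_add_left, herm_add_right hF, herm_smul_left, herm_smul_right, mul_pow, hd, hdi, hxx, hyy, hxa,
      hax, haa, hyb, hby, hbb, hab, hba, hxb, hbx, hya, hay, mul_zero, add_zero, zero_add] at h1
    linear_combination h1 - γ * γ ^ q * hp0
  obtain ⟨d, hd, hd0, hd1, hd2⟩ := exists_fixed_elt hF hq
  have e1 := hrel' 1 one_ne_zero (one_pow q)
  have e2 := hrel' d hd0 hd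
  have e3 : α * β ^ q * (d⁻¹ - d) = 0 := by
    rw [inv_one] at e1
    linear_combination e2 - d * e1
  have e4 : α = 0 ∨ β = 0 := by
    rcases mul_eq_zero.1 e3 with h | h
    · rcases mul_eq_zero.1 h with h | h
      · exact Or.inl h
      · exact Or.inr ((pow_q_eq_zero hF).1 h)
    · exact absurd h hd2
  have hdif := hs.sub_left hF (htor d hd0 hd) (hrel d hd0 hd)
  rcases e4 with h0 | h0
  · -- `α = 0`
    by_cases hβ : β = 0
    · rw [hseq, h0, hβ, zero_smul, zero_smul, add_zero, add_zero] at hs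
      have hγ0 : γ ≠ 0 := by
        rintro rfl
        apply hs0
        rw [hseq, h0, hβ]
        simp
      exact hTT (TT_of_SG_self hF hγ0 hs)
    · have e : s - (γ • (x + y) + (d * α) • a + (d⁻¹ * β) • b) = ((1 - d⁻¹) * β) • b := by
        rw [hseq, h0]
        ext i
        simp only [Pi.add_apply, Pi.sub_apply, Pi.smul_apply, smul_eq_mul]
        ring
      rw [e] at hdif
      have hne : (1 - d⁻¹) * β ≠ 0 := by
        refine mul_ne_zero ?_ hβ
        intro h
        apply hd1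
        field_simp at h
        linear_combination h
      have h1 := (hdif.of_smul_left hne).symm hF
      have hb0 : b ≠ 0 := by
        rintro rfl
        rw [herm_zero_right hF] at hab
        exact zero_ne_one hab
      have h2 := mem_of_SG hF hP HM hN hb hb0 h1
      exact hy0 (hP.eq_zero (by simpa using X.sub_mem h2 hx) hy)
  · -- `β = 0`
    by_cases hα : α = 0
    · rw [hseq, h0, hα, zero_smul, zero_smul, add_zero, add_zero] at hs
      have hγ0 : γ ≠ 0 := by
        rintro rfl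
        apply hs0
        rw [hseq, h0, hα]
        simp
      exact hTT (TT_of_SG_self hF hγ0 hs)
    · have e : s - (γ • (x + y) + (d * α) • a + (d⁻¹ * β) • b) = ((1 - d) * α) • a := by
        rw [hseq, h0]
        ext i
        simp only [Pi.add_apply, Pi.sub_apply, Pi.smul_apply, smul_eq_mul]
        ring
      rw [e] at hdif
      have hne : (1 - d) * α ≠ 0 := by
        refine mul_ne_zero ?_ hα
        intro h
        apply hd1
        linear_combination -h
      have h1 := (hdif.of_smul_left hne).symm hF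
      have h2 := mem_of_SG hF hP.symm HM.symm hN.symm ha ha0 h1
      exact hx0 (hP.eq_zero hx (by simpa using Y.sub_mem h2 hy))

/-- No mixed images with orthogonal components, `k = 2`, `q ≥ 4`. -/
theorem no_mixed_two_b (hF : Fintype.card F = q ^ 2) (hP : IsPair q X Y) (HM : Fixes q X Y M) (hN : NoTT q X Y M)
    (hMS : M ≤ SUg n F q) (hX : Module.finrank F X = 2) (hY : Module.finrank F Y = 2) (hq : 4 ≤ q)
    {x y : Fin n → F} (hx : x ∈ X) (hy : y ∈ Y) (hx0 : x ≠ 0) (hy0 : y ≠ 0) (hxy : hermForm n F q x y = 0)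
    (hI : Img X Y M (x + y)) : False := by
  have hyx : hermForm n F q y x = 0 := herm_eq_zero_swap hF hxy
  obtain ⟨s, hs0, hs⟩ := hI.exists_partner hF hP HM hMS (by omega) (by omega)
  obtain ⟨hsy, hsx⟩ := perp_of_SG hF hP HM hN hMS hx hy hx0 hy0 hI hs hx hy hx0 hy0 hxy hyx hxy
  obtain ⟨sx, hsxm, sy, hsym, hsxy⟩ := hP.decomp s
  have h1 : hermForm n F q sx y = 0 := by
    rwa [hsxy, herm_add_left, hP.tsY sy hsym y hy, add_zero] at hsy
  have h2 : hermForm n F q sy x = 0 := by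
    rwa [hsxy, herm_add_left, hP.tsX sx hsxm x hx, zero_add] at hsx
  -- `sx` is a multiple of `x`
  have h3 : ∀ {X Y : Submodule F (Fin n → F)} (_ : IsPair q X Y) (_ : Module.finrank F X = 2) {x y sx : Fin n → F}
      (_ : x ∈ X) (_ : y ∈ Y) (_ : x ≠ 0) (_ : y ≠ 0) (_ : hermForm n F q x y = 0) (_ : sx ∈ X)
      (_ : hermForm n F q sx y = 0), ∃ α : F, sx = α • x := by
    intro X Y hP hX x y sx hx hy hx0 hy0 hxy hsx h1
    by_contra hcon
    push Not at hcon
    have hind : LinearIndependent F ![x, sx] := by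
      rw [LinearIndependent.pair_iff]
      intro c d h
      by_cases hd : d = 0
      · refine ⟨?_, hd⟩
        rw [hd, zero_smul, add_zero] at h
        exact (smul_eq_zero.1 h).resolve_right hx0
      · exfalso
        apply hcon (-(d⁻¹ * c))
        have h5 : d • sx = -(c • x) := by
          rw [eq_neg_iff_add_eq_zero, add_comm]
          exact h
        have h6 := congrArg (fun v => d⁻¹ • v) h5
        simp only [smul_smul, inv_mul_cancel₀ hd, one_smul, smul_neg] at h6
        rw [h6, neg_smul]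
    obtain ⟨z, hz, hzy⟩ := hP.symm.exists_ne' hF hy hy0
    obtain ⟨c, d, rfl⟩ := exists_coords hX hx hsx hind hz
    apply hzy
    rw [herm_add_left, herm_smul_left, herm_smul_left, hxy, h1]
    ring
  obtain ⟨α, hα⟩ := h3 hP hX hx hy hx0 hy0 hxy hsxm h1
  obtain ⟨β, hβ⟩ := h3 hP.symm hY hy hx hy0 hx0 hyx hsym h2
  have hse : s = α • x + β • y := by rw [hsxy, hα, hβ]
  have hα0 : α ≠ 0 := by
    rintro rfl
    rw [zero_smul, zero_add] at hse
    have hβ0 : β ≠ 0 := by
      rintro rfl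
      exact hs0 (by rw [hse, zero_smul])
    rw [hse] at hs
    have h4 := mem_of_SG hF hP HM hN hy hy0 ((hs.of_smul_left hβ0).symm hF)
    exact hy0 (hP.eq_zero (by simpa using X.sub_mem h4 hx) hy)
  obtain ⟨z, hz, hzx⟩ := hP.exists_ne' hF hx hx0
  obtain ⟨η, hη⟩ := exists_not_fixed hF
  obtain ⟨g, hg, hgx⟩ := hs.2.2.2 (η / α)
  have hz0 : z ≠ 0 := by
    rintro rfl
    exact hzx (herm_zero_left x)
  have hgz : (g : Matrix (Fin n) (Fin n) F) *ᵥ z = (hermForm n F q z x * (η - η ^ q)) • x +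
      (z + (hermForm n F q z x * (η / α * β - η ^ q)) • y) := by
    rw [hgx, hse, herm_add_right hF, herm_add_right hF, herm_smul_right, herm_smul_right, hP.tsY z hz y hy]
    have e1 : (η / α) * α = η := by field_simp
    have e2 : (η / α) ^ q * α ^ q = η ^ q := by rw [← mul_pow, e1]
    ext i
    simp only [Pi.add_apply, Pi.sub_apply, Pi.smul_apply, smul_eq_mul]
    linear_combination (hermForm n F q z x * x i) * e1 - (hermForm n F q z x * (x i + y i)) * e2
  have hI2 : Img X Y M ((g : Matrix (Fin n) (Fin n) F) *ᵥ z) := ⟨g, hg, z, Or.inr hz, hz0, rfl⟩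
  rw [hgz] at hI2
  refine no_mixed_two_a hF hP HM hN hMS hX hY hq (X.smul_mem _ hx) (Y.add_mem hz (Y.smul_mem _ hy)) ?_ hI2
  rw [herm_smul_left, herm_add_right hF, herm_smul_right, hxy, mul_zero, add_zero]
  refine mul_ne_zero (mul_ne_zero hzx (sub_ne_zero.2 (Ne.symm hη))) ?_
  intro h0
  exact hzx (herm_eq_zero_swap hF h0)

/-- An element mapping `X ∪ Y` into itself preserves or interchanges `X` and `Y`. -/
theorem false_of_union (hP : IsPair q X Y) (hX : 1 ≤ Module.finrank F X)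
    (hY : 1 ≤ Module.finrank F Y) {g : GL (Fin n) F}
    (hg1 : ¬ ((∀ x ∈ X, (g : Matrix (Fin n) (Fin n) F) *ᵥ x ∈ X) ∧ ∀ y ∈ Y, (g : Matrix (Fin n) (Fin n) F) *ᵥ y ∈ Y))
    (hg2 : ¬ ((∀ x ∈ X, (g : Matrix (Fin n) (Fin n) F) *ᵥ x ∈ Y) ∧ ∀ y ∈ Y, (g : Matrix (Fin n) (Fin n) F) *ᵥ y ∈ X))
    (c1 : ∀ u ∈ X, (g : Matrix (Fin n) (Fin n) F) *ᵥ u ∈ X ∨ (g : Matrix (Fin n) (Fin n) F) *ᵥ u ∈ Y)
    (c2 : ∀ w ∈ Y, (g : Matrix (Fin n) (Fin n) F) *ᵥ w ∈ X ∨ (g : Matrix (Fin n) (Fin n) F) *ᵥ w ∈ Y) : False := by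
  have d1 := forall_or (Matrix.mulVecLin (g : Matrix (Fin n) (Fin n) F)) c1
  have d2 := forall_or (Matrix.mulVecLin (g : Matrix (Fin n) (Fin n) F)) c2
  have hall : ∀ Z : Submodule F (Fin n → F), (∀ x ∈ X, (g : Matrix (Fin n) (Fin n) F) *ᵥ x ∈ Z) →
      (∀ y ∈ Y, (g : Matrix (Fin n) (Fin n) F) *ᵥ y ∈ Z) → ∀ v, v ∈ Z := by
    intro Z h1 h2 v
    obtain ⟨x, hx, y, hy, hxy⟩ := hP.decomp (((g⁻¹ : GL (Fin n) F) : Matrix (Fin n) (Fin n) F) *ᵥ v)
    have := mulVec_inv g v
    rw [← this, hxy, Matrix.mulVec_add]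
    exact Z.add_mem (h1 x hx) (h2 y hy)
  have hX0 : ∃ x ∈ X, x ≠ 0 := Submodule.exists_mem_ne_zero_of_ne_bot (by
    rintro rfl
    rw [finrank_bot] at hX
    omega)
  have hY0 : ∃ x ∈ Y, x ≠ 0 := Submodule.exists_mem_ne_zero_of_ne_bot (by
    rintro rfl
    rw [finrank_bot] at hY
    omega)
  rcases d1 with d1 | d1 <;> rcases d2 with d2 | d2
  · obtain ⟨y, hy, hy0⟩ := hY0
    exact hy0 (hP.eq_zero (hall X d1 d2 y) hy)
  · exact hg1 ⟨d1, d2⟩
  · exact hg2 ⟨d1, d2⟩
  · obtain ⟨x, hx, hx0⟩ := hX0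
    exact hx0 (hP.eq_zero hx (hall Y d1 d2 x))

/-- No mixed images. -/
theorem no_mixed (hF : Fintype.card F = q ^ 2) (hP : IsPair q X Y) (HM : Fixes q X Y M) (hN : NoTT q X Y M)
    (hMS : M ≤ SUg n F q) {k : ℕ} (hX : Module.finrank F X = k) (hY : Module.finrank F Y = k) (hk : 2 ≤ k)
    (hq : k = 2 → 4 ≤ q) {w : Fin n → F} (hw : w ∈ Y) {m : GL (Fin n) F} (hm : m ∈ M) :
    (m : Matrix (Fin n) (Fin n) F) *ᵥ w ∈ X ∨ (m : Matrix (Fin n) (Fin n) F) *ᵥ w ∈ Y := by
  by_cases hw0 : w = 0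
  · left
    rw [hw0, Matrix.mulVec_zero]
    exact X.zero_mem
  obtain ⟨x, hx, y, hy, hxy⟩ := hP.decomp ((m : Matrix (Fin n) (Fin n) F) *ᵥ w)
  rw [hxy]
  by_contra hcon
  push Not at hcon
  have hx0 : x ≠ 0 := by
    rintro rfl
    apply hcon.2
    rwa [zero_add]
  have hy0 : y ≠ 0 := by
    rintro rfl
    apply hcon.1
    rwa [add_zero]
  by_cases h3 : 3 ≤ k
  · exact no_mixed_three hF hP HM hN hMS (by omega) (by omega) hx hy hx0 hy0 hw hw0 hm hxy
  have hk2 : k = 2 := by omega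
  have hI : Img X Y M (x + y) := ⟨m, hm, w, Or.inr hw, hw0, hxy⟩
  by_cases h0 : hermForm n F q x y = 0
  · exact no_mixed_two_b hF hP HM hN hMS (by omega) (by omega) (hq hk2) hx hy hx0 hy0 h0 hI
  · exact no_mixed_two_a hF hP HM hN hMS (by omega) (by omega) (hq hk2) hx hy h0 hI

theorem SUg_le_of_pair (hF : Fintype.card F = q ^ 2) (h32 : ¬ (n = 3 ∧ q = 2)) (hP : IsPair q X Y)
    {k : ℕ} (hX : Module.finrank F X = k) (hY : Module.finrank F Y = k) (hk : 2 ≤ k)
    (hq : k = 2 → 4 ≤ q) (HM : Fixes q X Y M)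
    (HS : Swaps q X Y M) (hMS : M ≤ SUg n F q) {g : GL (Fin n) F} (hg : g ∈ M)
    (hg1 : ¬ ((∀ x ∈ X, (g : Matrix (Fin n) (Fin n) F) *ᵥ x ∈ X) ∧ ∀ y ∈ Y, (g : Matrix (Fin n) (Fin n) F) *ᵥ y ∈ Y))
    (hg2 : ¬ ((∀ x ∈ X, (g : Matrix (Fin n) (Fin n) F) *ᵥ x ∈ Y) ∧ ∀ y ∈ Y, (g : Matrix (Fin n) (Fin n) F) *ᵥ y ∈ X)) :
    SUg n F q ≤ M := by
  by_cases hN : NoTT q X Y M
  · exact (false_of_union hP (by omega) (by omega) hg1 hg2
      (fun u hu => (no_mixed hF hP.symm HM.symm hN.symm hMS hY hX hk hq hu hg).symm)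
      (fun w hw => no_mixed hF hP HM hN hMS hX hY hk hq hw hg)).elim
  · by_cases h1 : ∀ w ∈ Y, w ≠ 0 → ¬ TT q M w
    · by_cases h2 : ∀ w ∈ X, w ≠ 0 → ¬ TT q M w
      · exact absurd ⟨h2, h1⟩ hN
      · push Not at h2
        obtain ⟨w, hw, hw0, hT⟩ := h2
        exact SUg_le_of_center hF h32 hP.symm (by rw [hX, hY]) HM.symm HS.symm hMS hw hw0 hT
    · push Not at h1
      obtain ⟨w, hw, hw0, hT⟩ := h1
      exact SUg_le_of_center hF h32 hP (by rw [hX, hY]) HM HS hMS hw hw0 hT

/-- **The stabiliser in `SU_n(q)` of a pair of complementary totally singular subspaces of dimension `k ≥ 2` is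
maximal**, except possibly for `k = 2`, `q ≤ 3`. -/
theorem pair_maximal (hF : Fintype.card F = q ^ 2) {k : ℕ} (hk : 2 ≤ k) (hq : k = 2 → 4 ≤ q)
    {D : Fin 2 → Submodule F (Fin n → F)} (hD : IsMDecomposition k D)
    (hts : ∀ i, IsTotallySingularFor (hermForm n F q) (D i)) :
    IsMaximalIn (SUg n F q) (decompositionStabilizer D ⊓ SUg n F q) := by
  have h4 : 4 ≤ n := by
    have hP := isPair_of_decomp hD hts
    have h1 := Submodule.finrank_add_eq_of_isCompl hP.compl
    rw [hD.finrank_eq, hD.finrank_eq, Module.finrank_fin_fun] at h1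
    omega
  have h32 : ¬ (n = 3 ∧ q = 2) := by omega
  refine pair_maximal_of hF (by omega) h32 hD hts ?_
  intro X Y M hP hX hY HM HS hMS g hg hg1 hg2
  exact SUg_le_of_pair hF h32 hP hX hY hk hq HM HS hMS hg hg1 hg2

end Cfsg.Agent.H877
end

-- part: H876/FourBase
section
/-!
# Overgroups of the monomial group of `SU_4(q)`, `q ≥ 4`: non-monomial elements have no zero entry

Under `hstar` (an element of `X` fixing a coordinate line is monomial).
-/

set_option autoImplicit false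

namespace Cfsg.Agent.H876.Four

open Cfsg Cfsg.Agent.LieClassical.HermBasic Cfsg.Agent.LieClassical.HermSiegel Cfsg.Agent.H927
open Cfsg.Agent.H876.MonoBasic Cfsg.Agent.H876.OddFrame

variable {F : Type*} [Field F] {n q : ℕ}

/-- matrix entries -/
def ent (g : SU n F q) (i k : Fin n) : F := act g (Pi.single k 1) i

/-- diagonal elements with given entries -/
def Dg (g : SU n F q) (d : Fin n → F) : Prop := ∀ x l, act g x l = d l * x l

theorem Dg.single {g : SU n F q} {d : Fin n → F} (h : Dg g d) (k : Fin n) :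
    act g (Pi.single k 1) = d k • Pi.single k 1 := by
  funext l
  rw [h, Pi.smul_apply, smul_eq_mul]
  by_cases hl : l = k
  · subst hl; rfl
  · rw [Pi.single_eq_of_ne hl, mul_zero, mul_zero]

theorem Dg.isDiag {g : SU n F q} {d : Fin n → F} (h : Dg g d) : IsDiag g := ⟨d, h.single⟩

theorem Dg.isMono {g : SU n F q} {d : Fin n → F} (h : Dg g d) : IsMono g := h.isDiag.isMono

theorem exists_dg_of_isDiag {g : SU n F q} (h : IsDiag g) : ∃ d, Dg g d := by
  obtain ⟨d, hd⟩ := h
  exact ⟨d, fun x l => act_perm_apply (σ := Equiv.refl _) hd x l⟩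

theorem ent_mono {g : SU n F q} {σ : Equiv.Perm (Fin n)} {d : Fin n → F}
    (hd : ∀ j, act g (Pi.single j 1) = d j • Pi.single (σ j) 1) (i j : Fin n) :
    ent g i j = if i = σ j then d j else 0 := by
  rw [ent, hd, Pi.smul_apply, smul_eq_mul]
  split_ifs with h
  · rw [h, Pi.single_eq_same, mul_one]
  · rw [Pi.single_eq_of_ne h, mul_zero]

/-- a non-monomial element from two non-zero entries in a column. -/
theorem not_isMono {g : SU n F q} {k i j : Fin n} (hij : i ≠ j) (hi : ent g i k ≠ 0)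
    (hj : ent g j k ≠ 0) : ¬ IsMono g := by
  intro hm
  obtain ⟨m, c, hc⟩ := hm k
  have e1 : ent g i k = c * (Pi.single m 1 : Fin n → F) i := by rw [ent, hc]; rfl
  have e2 : ent g j k = c * (Pi.single m 1 : Fin n → F) j := by rw [ent, hc]; rfl
  by_cases h : m = i
  · rw [h, Pi.single_eq_of_ne (Ne.symm hij), mul_zero] at e2
    exact hj e2
  · rw [Pi.single_eq_of_ne (Ne.symm h), mul_zero] at e1
    exact hi e1

theorem isMono_of_col {g : SU n F q} (h : ∀ k i j, i ≠ j → ent g i k ≠ 0 → ent g j k = 0) : IsMono g := by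
  intro k
  obtain ⟨i, hi⟩ : ∃ i, ent g i k ≠ 0 := by
    by_contra hcon
    push Not at hcon
    have h1 : act g (Pi.single k 1) = 0 := funext hcon
    rw [act_eq_zero] at h1
    exact single_ne_zero k h1
  refine ⟨i, ent g i k, ?_⟩
  funext j
  rw [Pi.smul_apply, smul_eq_mul]
  by_cases hji : j = i
  · subst hji; rw [Pi.single_eq_same, mul_one]; rfl
  · rw [Pi.single_eq_of_ne hji, mul_zero]
    exact h k i j (Ne.symm hji) hi

theorem univ_four {i j k l : Fin 4} (hij : i ≠ j) (hik : i ≠ k) (hil : i ≠ l) (hjk : j ≠ k)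
    (hjl : j ≠ l) (hkl : k ≠ l) : (Finset.univ : Finset (Fin 4)) = {i, j, k, l} := by
  revert i j k l
  decide +kernel

theorem sum_four {M : Type*} [AddCommMonoid M] {i j k l : Fin 4} (hij : i ≠ j) (hik : i ≠ k)
    (hil : i ≠ l) (hjk : j ≠ k) (hjl : j ≠ l) (hkl : k ≠ l) (f : Fin 4 → M) :
    ∑ x, f x = f i + f j + f k + f l := by
  rw [univ_four hij hik hil hjk hjl hkl, Finset.sum_insert (by simp [hij, hik, hil]),
    Finset.sum_insert (by simp [hjk, hjl]), Finset.sum_insert (by simp [hkl]), Finset.sum_singleton,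
    add_assoc, add_assoc]

theorem prod_four {M : Type*} [CommMonoid M] {i j k l : Fin 4} (hij : i ≠ j) (hik : i ≠ k)
    (hil : i ≠ l) (hjk : j ≠ k) (hjl : j ≠ l) (hkl : k ≠ l) (f : Fin 4 → M) :
    ∏ x, f x = f i * f j * f k * f l := by
  rw [univ_four hij hik hil hjk hjl hkl, Finset.prod_insert (by simp [hij, hik, hil]),
    Finset.prod_insert (by simp [hjk, hjl]), Finset.prod_insert (by simp [hkl]), Finset.prod_singleton,
    mul_assoc, mul_assoc]

theorem exists_three_others (i : Fin 4) : ∃ j k l : Fin 4, i ≠ j ∧ i ≠ k ∧ i ≠ l ∧ j ≠ k ∧ j ≠ l ∧ k ≠ l := by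
  revert i
  decide

theorem exists_two_others {i j : Fin 4} (h : i ≠ j) : ∃ k l : Fin 4, i ≠ k ∧ i ≠ l ∧ j ≠ k ∧ j ≠ l ∧ k ≠ l := by
  revert i j
  decide

section

variable [Fintype F] (hF : Fintype.card F = q ^ 2)
include hF

theorem exists_dg (d : Fin n → F) (hd : ∀ i, d i * d i ^ q = 1) (hdet : ∏ i, d i = 1) :
    ∃ g : SU n F q, Dg g d := by
  obtain ⟨g, -, hg⟩ := exists_mono hF (1 : Equiv.Perm (Fin n)) d hd (by
    rw [Equiv.Perm.sign_one, hdet]; simp)
  exact ⟨g, fun x l => by rw [hg, Equiv.Perm.one_apply]⟩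

theorem ent_inv (g : SU n F q) (i k : Fin n) : ent g⁻¹ k i = ent g i k ^ q :=
  act_inv_single hF g i k

theorem row_herm (g : SU n F q) (i j : Fin n) :
    ∑ k, ent g i k * ent g j k ^ q = hermForm n F q (Pi.single j 1) (Pi.single i (1 : F)) := by
  rw [← herm_act g⁻¹, herm_def]
  refine Finset.sum_congr rfl fun k _ => ?_
  have e1 : act g⁻¹ (Pi.single i 1) k = ent g i k ^ q := ent_inv hF g i k
  have e2 : act g⁻¹ (Pi.single j 1) k = ent g j k ^ q := ent_inv hF g j k
  rw [e1, e2, pow_q_pow_q hF]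
  ring

theorem row_norm (g : SU n F q) (i : Fin n) : ∑ k, ent g i k * ent g i k ^ q = 1 := by
  rw [row_herm hF, herm_single_self hF]

theorem row_orth (g : SU n F q) {i j : Fin n} (hij : i ≠ j) : ∑ k, ent g i k * ent g j k ^ q = 0 := by
  rw [row_herm hF, herm_single_ne hF hij.symm]

theorem col_norm (g : SU n F q) (k : Fin n) : ∑ i, ent g i k * ent g i k ^ q = 1 := by
  have h1 := herm_act g (Pi.single k 1) (Pi.single k (1 : F))
  rw [herm_single_self hF] at h1
  exact h1

theorem col_orth (g : SU n F q) {k l : Fin n} (hkl : k ≠ l) : ∑ i, ent g i k * ent g i l ^ q = 0 := by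
  have h1 := herm_act g (Pi.single k 1) (Pi.single l (1 : F))
  rw [herm_single_ne hF hkl] at h1
  exact h1

/-- the entries of a conjugate of a diagonal element. -/
theorem ent_conj {d : SU n F q} {δ : Fin n → F} (hd : Dg d δ) (g : SU n F q) (k l : Fin n) :
    ent (g⁻¹ * d * g) k l = ∑ i, δ i * (ent g i l * ent g i k ^ q) := by
  have h1 : ent (g⁻¹ * d * g) k l = hermForm n F q (act (g⁻¹ * d * g) (Pi.single l 1)) (Pi.single k 1) := by
    rw [H927.herm_single_right hF]; rfl
  rw [h1, ← herm_act g, act_mul, act_mul, act_act_inv, herm_def]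
  refine Finset.sum_congr rfl fun i _ => ?_
  rw [hd]
  simp only [ent]
  ring

theorem exists_fourth (hq : 4 ≤ q) : ∃ c : F, c * c ^ q = 1 ∧ c ^ 4 ≠ 1 := by
  obtain ⟨c, hc, hP⟩ := exists_norm_one_not_root hF (Polynomial.X ^ 4 - 1 : Polynomial F)
    (Polynomial.X_pow_sub_C_ne_zero (by norm_num) (1 : F)) (by
      have : (Polynomial.X ^ 4 - 1 : Polynomial F).natDegree ≤ 4 := by compute_degree
      omega)
  refine ⟨c, hc, fun h => hP ?_⟩
  simp [h]

variable {X : Subgroup (SU n F q)} (hG : ∀ g : SU n F q, IsMono g → g ∈ X)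
  (hstar : ∀ y ∈ X, ∀ (k : Fin n) (c : F), act y (Pi.single k 1) = c • Pi.single k 1 → IsMono y)
include hG hstar

/-- two zeros in a row: the columns have one non-zero entry. -/
theorem col_of_zeros (hq : 4 ≤ q) {g : SU n F q} (hg : g ∈ X) {k l j : Fin n} (hkl : k ≠ l)
    (hjk : ent g j k = 0) (hjl : ent g j l = 0) {i₁ i₂ : Fin n} (hi : i₁ ≠ i₂) (h1 : ent g i₁ k ≠ 0) :
    ent g i₂ k = 0 := by
  by_contra h2
  have z1 := (cp hF hG hstar (by omega) hg hkl hjk hjl i₁).resolve_left (fun h => h1 h.1)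
  have z2 := (cp hF hG hstar (by omega) hg hkl hjk hjl i₂).resolve_left (fun h => h2 h.1)
  obtain ⟨c, hc, hc4⟩ := exists_fourth hF hq
  have hT : TorIn X (act g (Pi.single k 1)) (act g (Pi.single l 1)) :=
    (torIn_single hF hG hkl).map hF hg
  obtain ⟨y, hy, hact⟩ := hT c hc
  have hjk' : act g (Pi.single k 1) j = 0 := hjk
  have hjl' : act g (Pi.single l 1) j = 0 := hjl
  have hmono : IsMono y := by
    apply hstar y hy j 1
    rw [hact, H927.herm_single_left, H927.herm_single_left, hjk', hjl', zero_pow_q hF]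
    simp
  -- row relations
  have hrow : ∀ a b : Fin n, (∀ m, m ≠ k → m ≠ l → ent g a m = 0) →
      ∑ m, ent g a m * ent g b m ^ q = ent g a k * ent g b k ^ q + ent g a l * ent g b l ^ q := by
    intro a b ha
    rw [Fintype.sum_eq_add k l hkl]
    rintro m ⟨hm1, hm2⟩
    rw [ha m hm1 hm2, zero_mul]
  have r1 := row_norm hF g i₁
  rw [hrow i₁ i₁ z1] at r1
  have r2 := row_orth hF g (Ne.symm hi)
  rw [hrow i₂ i₁ z2] at r2
  obtain ⟨ν, hν⟩ : ∃ ν, ν = ent g i₁ k * ent g i₁ k ^ q := ⟨_, rfl⟩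
  have hν0 : ν ≠ 0 := by rw [hν]; exact mul_ne_zero h1 (pow_ne_zero _ h1)
  have hνq : ν ^ q = ν := by rw [hν, norm_pow_q hF]
  have e1 : ent y i₁ i₁ = c ^ q + ν * (c - c ^ q) := by
    have h3 := congrFun (hact (Pi.single i₁ 1)) i₁
    rw [H927.herm_single_left, H927.herm_single_left] at h3
    simp only [Pi.add_apply, Pi.smul_apply, smul_eq_mul, Pi.single_eq_same] at h3
    change ent y i₁ i₁ = 1 + (c - 1) * ent g i₁ k ^ q * ent g i₁ k +
      (c ^ q - 1) * ent g i₁ l ^ q * ent g i₁ l at h3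
    rw [h3, hν]
    linear_combination (c ^ q - 1) * r1
  have e2 : ent y i₂ i₁ = (c - c ^ q) * (ent g i₂ k * ent g i₁ k ^ q) := by
    have h3 := congrFun (hact (Pi.single i₁ 1)) i₂
    rw [H927.herm_single_left, H927.herm_single_left] at h3
    simp only [Pi.add_apply, Pi.smul_apply, smul_eq_mul, Pi.single_eq_of_ne (Ne.symm hi)] at h3
    change ent y i₂ i₁ = 0 + (c - 1) * ent g i₁ k ^ q * ent g i₂ k +
      (c ^ q - 1) * ent g i₁ l ^ q * ent g i₂ l at h3
    rw [h3]
    linear_combination (c ^ q - 1) * r2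
  refine not_isMono (g := y) (k := i₁) hi ?_ ?_ hmono
  · rw [e1]
    intro h0
    have h3 : 1 - ν + c ^ 2 * ν = 0 := by linear_combination c * h0 - (1 - ν) * hc
    have h4 := congrArg (fun x => x ^ q) h3
    simp only [add_pow_q hF, sub_pow_q hF, mul_pow, one_pow, hνq, zero_pow_q hF] at h4
    have h5 : ν * (c ^ 4 - 1) = 0 := by
      linear_combination c ^ 2 * h3 - c ^ 2 * h4 + ν * (c * c ^ q + 1) * hc
    rcases mul_eq_zero.1 h5 with h6 | h6
    · exact hν0 h6
    · exact hc4 (sub_eq_zero.1 h6)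
  · rw [e2]
    refine mul_ne_zero (fun h0 => hc4 ?_) (mul_ne_zero h2 (pow_ne_zero _ h1))
    have h3 : c ^ 2 = 1 := by
      have h4 : c = c ^ q := sub_eq_zero.1 h0
      calc c ^ 2 = c * c := by ring
        _ = c * c ^ q := by rw [← h4]
        _ = 1 := hc
    calc c ^ 4 = (c ^ 2) ^ 2 := by ring
      _ = 1 := by rw [h3, one_pow]

/-- two zeros in a row: the element is monomial. -/
theorem mono_of_zeros4 (hn : 4 ≤ n) (hq : 4 ≤ q) {g : SU n F q} (hg : g ∈ X) {k l j : Fin n} (hkl : k ≠ l)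
    (hjk : ent g j k = 0) (hjl : ent g j l = 0) : IsMono g := by
  classical
  have hcol : ∀ i₁ i₂, i₁ ≠ i₂ → ent g i₁ k ≠ 0 → ent g i₂ k = 0 := fun i₁ i₂ hi h =>
    col_of_zeros hF hG hstar hq hg hkl hjk hjl hi h
  obtain ⟨a, ha⟩ : ∃ a, ent g a k ≠ 0 := by
    by_contra hcon
    push Not at hcon
    have h1 : act g (Pi.single k 1) = 0 := funext hcon
    rw [act_eq_zero] at h1
    exact single_ne_zero k h1
  have hrow : ∀ m, m ≠ k → ent g a m = 0 := by
    intro m hm
    have h1 := col_orth hF g hm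
    rw [Finset.sum_eq_single a] at h1
    · rcases mul_eq_zero.1 h1 with h | h
      · exact h
      · exact absurd ((pow_q_eq_zero hF).1 h) ha
    · intro b _ hb
      rw [hcol a b (Ne.symm hb) ha, zero_pow_q hF, mul_zero]
    · intro h; exact absurd (Finset.mem_univ a) h
  apply isMono_of_col
  intro m i₁ i₂ hi h1
  by_cases hmk : m = k
  · subst hmk; exact hcol i₁ i₂ hi h1
  · obtain ⟨m', hm'⟩ := EvenFrame.exists_notMem_of_card_lt (s := ({k, m} : Finset (Fin n))) (n := n)
      (lt_of_le_of_lt Finset.card_le_two (by omega))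
    simp only [Finset.mem_insert, Finset.mem_singleton, not_or] at hm'
    exact col_of_zeros hF hG hstar hq hg (k := m) (l := m') (j := a) (Ne.symm hm'.2) (hrow m hmk)
      (hrow m' hm'.1) hi h1

end

section

variable [Fintype F] (hF : Fintype.card F = q ^ 2)
include hF

/-- the homology with centre `k`, up to scalars. -/
theorem exists_hom (k : Fin 4) {c : F} (hc : c * c ^ q = 1) :
    ∃ d : SU 4 F q, Dg d (fun l => if l = k then (c ^ q) ^ 3 else c) ∧
      ∀ x, act d x = c • x + (((c ^ q) ^ 3 - c) * x k) • Pi.single k 1 := by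
  obtain ⟨j, l, m, h1, h2, h3, h4, h5, h6⟩ := exists_three_others k
  obtain ⟨d, hd⟩ := exists_dg hF (n := 4) (fun l => if l = k then (c ^ q) ^ 3 else c) (by
    intro i
    split_ifs
    · rw [← pow_mul (c ^ q) 3 q, mul_comm 3 q, pow_mul (c ^ q) q 3, pow_q_pow_q hF]
      linear_combination ((c * c ^ q) ^ 2 + c * c ^ q + 1) * hc
    · exact hc) (by
    rw [prod_four h1 h2 h3 h4 h5 h6, if_pos rfl, if_neg h1.symm, if_neg h2.symm, if_neg h3.symm]
    linear_combination ((c * c ^ q) ^ 2 + c * c ^ q + 1) * hc)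
  refine ⟨d, hd, fun x => ?_⟩
  funext i
  rw [hd, Pi.add_apply, Pi.smul_apply, Pi.smul_apply, smul_eq_mul, smul_eq_mul]
  show (if i = k then (c ^ q) ^ 3 else c) * x i = _
  split_ifs with h
  · subst h; rw [Pi.single_eq_same]; ring
  · rw [Pi.single_eq_of_ne h]; ring

theorem hom_ne {c : F} (hc : c * c ^ q = 1) (hc4 : c ^ 4 ≠ 1) : (c ^ q) ^ 3 - c ≠ 0 := by
  intro h
  apply hc4
  have h1 : (c ^ q) ^ 3 = c := sub_eq_zero.1 h
  calc c ^ 4 = c ^ 3 * (c ^ q) ^ 3 := by rw [h1]; ring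
    _ = (c * c ^ q) ^ 3 := by ring
    _ = 1 := by rw [hc, one_pow]

variable {X : Subgroup (SU 4 F q)} (hG : ∀ g : SU 4 F q, IsMono g → g ∈ X)
  (hstar : ∀ y ∈ X, ∀ (k : Fin 4) (c : F), act y (Pi.single k 1) = c • Pi.single k 1 → IsMono y)
include hG hstar

/-- **non-monomial elements have no zero entry.** -/
theorem zero_free (hq : 4 ≤ q) {g : SU 4 F q} (hg : g ∈ X) (hgm : ¬ IsMono g) (i j : Fin 4) :
    ent g i j ≠ 0 := by
  intro h0
  have hne : ∀ a, a ≠ j → ent g i a ≠ 0 := by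
    intro a ha h1
    exact hgm (mono_of_zeros4 hF hG hstar le_rfl hq hg ha h1 h0)
  obtain ⟨c, hc, hc4⟩ := exists_fourth hF hq
  obtain ⟨d, hd, hact⟩ := exists_hom hF i hc
  have hdX : d ∈ X := hG d hd.isMono
  have hy : g⁻¹ * d * g ∈ X := X.mul_mem (X.mul_mem (X.inv_mem hg) hdX) hg
  have hya : ∀ a, act (g⁻¹ * d * g) (Pi.single a 1) =
      c • Pi.single a 1 + (((c ^ q) ^ 3 - c) * ent g i a) • act g⁻¹ (Pi.single i 1) := by
    intro a
    rw [act_mul, act_mul, hact, act_add, act_smul, act_inv_act, act_smul]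
    rfl
  have hmono : IsMono (g⁻¹ * d * g) := by
    apply hstar _ hy j c
    rw [hya, h0, mul_zero, zero_smul, add_zero]
  obtain ⟨a, b, e, h1, h2, h3, h4, h5, h6⟩ := exists_three_others j
  refine not_isMono (g := g⁻¹ * d * g) (k := a) (i := b) (j := e) h6 ?_ ?_ hmono
  · have : ent (g⁻¹ * d * g) b a = ((c ^ q) ^ 3 - c) * ent g i a * ent g i b ^ q := by
      rw [ent, hya, Pi.add_apply, Pi.smul_apply, Pi.smul_apply, Pi.single_eq_of_ne h4.symm, smul_zero, zero_add,
        smul_eq_mul]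
      congr 1
      exact ent_inv hF g i b
    rw [this]
    exact mul_ne_zero (mul_ne_zero (hom_ne hF hc hc4) (hne a h1.symm)) (pow_ne_zero _ (hne b h2.symm))
  · have : ent (g⁻¹ * d * g) e a = ((c ^ q) ^ 3 - c) * ent g i a * ent g i e ^ q := by
      rw [ent, hya, Pi.add_apply, Pi.smul_apply, Pi.smul_apply, Pi.single_eq_of_ne h5.symm, smul_zero, zero_add,
        smul_eq_mul]
      congr 1
      exact ent_inv hF g i e
    rw [this]
    exact mul_ne_zero (mul_ne_zero (hom_ne hF hc hc4) (hne a h1.symm)) (pow_ne_zero _ (hne e h3.symm))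

end

theorem perm_twelve : ∀ σ : Equiv.Perm (Fin 4), σ ^ 12 = 1 := by (set_option synthInstance.maxSize 9000 in open scoped Cfsg.Agent.Lib.FastPerm in decide +kernel)

/-- permutations of odd order of four points -/
theorem perm_cube {σ : Equiv.Perm (Fin 4)} {M : ℕ} (hM : Odd M) (h : σ ^ M = 1) : σ ^ 3 = 1 := by
  have h12 := perm_twelve σ
  have h1 : orderOf σ ∣ 12 := orderOf_dvd_of_pow_eq_one h12
  have h2 : orderOf σ ∣ M := orderOf_dvd_of_pow_eq_one h
  have h3 : Odd (orderOf σ) := Odd.of_dvd_nat hM h2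
  apply orderOf_dvd_iff_pow_eq_one.1
  have h4 : orderOf σ ≤ 12 := Nat.le_of_dvd (by norm_num) h1
  interval_cases h : orderOf σ <;> simp_all (decide := true) only [_root_.orderOf_eq_zero_iff, _root_.orderOf_eq_one_iff, _root_.isUnit_iff_eq_one, _root_.IsUnit.dvd]

end Cfsg.Agent.H876.Four
end

-- part: H876/FourEven
section
/-!
# Overgroups of the monomial group of `SU_4(q)`, `q ≥ 4` even
-/

set_option autoImplicit false

namespace Cfsg.Agent.H876.Four

open Cfsg Cfsg.Agent.LieClassical.HermBasic Cfsg.Agent.LieClassical.HermSiegel Cfsg.Agent.H927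
open Cfsg.Agent.H876.MonoBasic Cfsg.Agent.H876.OddFrame

variable {F : Type*} [Field F] {n q : ℕ}

/-- powers of a monomial element -/
theorem perm_pow {y : SU n F q} {σ : Equiv.Perm (Fin n)} {d : Fin n → F} (hd0 : ∀ j, d j ≠ 0)
    (hd : ∀ j, act y (Pi.single j 1) = d j • Pi.single (σ j) 1) (k : ℕ) :
    ∀ j, ∃ c : F, c ≠ 0 ∧ act (y ^ k) (Pi.single j 1) = c • Pi.single ((σ ^ k) j) 1 := by
  induction k with
  | zero => intro j; exact ⟨1, one_ne_zero, by rw [pow_zero, act_one, one_smul]; rfl⟩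
  | succ k ih =>
    intro j
    obtain ⟨c, hc0, hc⟩ := ih (σ j)
    refine ⟨d j * c, mul_ne_zero (hd0 j) hc0, ?_⟩
    rw [pow_succ, act_mul, hd, act_smul, hc, smul_smul, pow_succ, Equiv.Perm.mul_apply]

theorem perm_pow_eq_one {y : SU n F q} {σ : Equiv.Perm (Fin n)} {d : Fin n → F} (hd0 : ∀ j, d j ≠ 0)
    (hd : ∀ j, act y (Pi.single j 1) = d j • Pi.single (σ j) 1) {k : ℕ} (h : IsDiag (y ^ k)) :
    σ ^ k = 1 := by
  obtain ⟨ζ, hζ⟩ := h
  ext j : 1
  obtain ⟨c, hc0, hc⟩ := perm_pow hd0 hd k j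
  rw [hζ] at hc
  rw [Equiv.Perm.one_apply]
  by_contra hne
  have h2 := congrFun hc ((σ ^ k) j)
  rw [Pi.smul_apply, Pi.smul_apply, Pi.single_eq_same, Pi.single_eq_of_ne hne, smul_zero, smul_eq_mul,
    mul_one] at h2
  exact hc0 h2.symm

theorem perm_fix : ∀ σ : Equiv.Perm (Fin 4), σ ^ 3 = 1 → ∃ s, σ s = s := by (set_option synthInstance.maxSize 9000 in open scoped Cfsg.Agent.Lib.FastPerm in decide +kernel)

theorem Dg.pow {g : SU n F q} {d : Fin n → F} (h : Dg g d) (k : ℕ) : Dg (g ^ k) (fun l => d l ^ k) := by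
  induction k with
  | zero => intro x l; rw [pow_zero, act_one]; simp
  | succ k ih => intro x l; rw [pow_succ, act_mul, ih, h]; ring

section

variable [Fintype F] (hF : Fintype.card F = q ^ 2)
include hF

/-- two values of traces agree -/
theorem exists_values_eq {w w' ρ ρ' : F} (hw : w ≠ 0) (hw' : w' ≠ 0) (hρ : ρ ^ q = ρ)
    (hρ' : ρ' ^ q = ρ') :
    ∃ t t' : F, t * t ^ q = 1 ∧ t' * t' ^ q = 1 ∧
      ρ + (t * w + (t * w) ^ q) = ρ' + (t' * w' + (t' * w') ^ q) := by
  classical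
  obtain ⟨h1, h3⟩ := EvenFrame.card_values hF hw hρ
  obtain ⟨h4, h5⟩ := EvenFrame.card_values hF hw' hρ'
  have hT := EvenFrame.card_fix (F := F) hF
  set T : Finset F := Finset.univ.filter (fun t : F => t ^ q = t) with hTd
  set A : Finset F := (Finset.univ.filter (fun t : F => t * t ^ q = 1)).image
    (fun t => ρ + (t * w + (t * w) ^ q)) with hA
  set B : Finset F := (Finset.univ.filter (fun t : F => t * t ^ q = 1)).image
    (fun t => ρ' + (t * w' + (t * w') ^ q)) with hB
  have hnd : ¬ Disjoint A B := by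
    intro hd
    have h6 := Finset.card_le_card (Finset.union_subset h1 h4)
    rw [Finset.card_union_of_disjoint hd, hT] at h6
    omega
  rw [Finset.not_disjoint_iff] at hnd
  obtain ⟨x, hx, hx'⟩ := hnd
  rw [hA, Finset.mem_image] at hx
  rw [hB, Finset.mem_image] at hx'
  obtain ⟨t, ht, htx⟩ := hx
  obtain ⟨t', ht', htx'⟩ := hx'
  rw [Finset.mem_filter] at ht ht'
  exact ⟨t, t', ht.2, ht'.2, htx.trans htx'.symm⟩

/-- a vanishing combination with coefficients of norm one -/
theorem exists_sum_zero {κ : Fin 4 → F} (h0 : ∀ i, κ i ≠ 0) :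
    ∃ d : Fin 4 → F, (∀ i, d i * d i ^ q = 1) ∧ ∑ i, d i * κ i = 0 := by
  obtain ⟨t, t', ht, ht', hval⟩ := exists_values_eq hF (w := κ 0 * κ 1 ^ q) (w' := κ 2 * κ 3 ^ q)
    (ρ := κ 0 * κ 0 ^ q + κ 1 * κ 1 ^ q) (ρ' := κ 2 * κ 2 ^ q + κ 3 * κ 3 ^ q)
    (mul_ne_zero (h0 0) (pow_ne_zero _ (h0 1))) (mul_ne_zero (h0 2) (pow_ne_zero _ (h0 3)))
    (by rw [add_pow_q hF, norm_pow_q hF, norm_pow_q hF])
    (by rw [add_pow_q hF, norm_pow_q hF, norm_pow_q hF])
  have e1 := EvenFrame.norm_add_mul hF (κ 0) (κ 1) t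
  have e2 := EvenFrame.norm_add_mul hF (κ 2) (κ 3) t'
  rw [ht, one_mul, hval] at e1
  rw [ht', one_mul] at e2
  have hN : (κ 0 + t ^ q * κ 1) * (κ 0 + t ^ q * κ 1) ^ q = (κ 2 + t' ^ q * κ 3) * (κ 2 + t' ^ q * κ 3) ^ q := by
    rw [e1, e2]
  obtain ⟨η, hη, hη0⟩ : ∃ η : F, η * η ^ q = 1 ∧ η * (κ 0 + t ^ q * κ 1) = -(κ 2 + t' ^ q * κ 3) := by
    by_cases hA : κ 0 + t ^ q * κ 1 = 0
    · rw [hA, zero_mul] at hN
      have hB := (norm_eq_zero hF).1 hN.symm
      exact ⟨1, by rw [one_pow, one_mul], by rw [hA, hB]; ring⟩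
    · refine ⟨-(κ 2 + t' ^ q * κ 3) / (κ 0 + t ^ q * κ 1), ?_, div_mul_cancel₀ _ hA⟩
      rw [div_pow, div_mul_div_comm, neg_pow_q hF, neg_mul_neg, ← hN]
      exact div_self (fun h => hA ((norm_eq_zero hF).1 h))
  have htq : t ^ q * (t ^ q) ^ q = 1 := by rw [pow_q_pow_q hF, mul_comm]; exact ht
  have htq' : t' ^ q * (t' ^ q) ^ q = 1 := by rw [pow_q_pow_q hF, mul_comm]; exact ht'
  refine ⟨![η, η * t ^ q, 1, t' ^ q], ?_, ?_⟩
  · intro i
    fin_cases i
    · exact hη
    · show η * t ^ q * (η * t ^ q) ^ q = 1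
      rw [mul_pow]
      linear_combination (t ^ q * (t ^ q) ^ q) * hη + htq
    · show (1 : F) * 1 ^ q = 1
      rw [one_pow, one_mul]
    · exact htq'
  · rw [Fin.sum_univ_four]
    show η * κ 0 + η * t ^ q * κ 1 + 1 * κ 2 + t' ^ q * κ 3 = 0
    linear_combination hη0

theorem four_dvd (h2 : (2 : F) = 0) (hq : 4 ≤ q) : ∃ k, q = 4 * k := by
  obtain ⟨p, f, hp, hchar, hpf, hf⟩ := exists_prime_pow hF
  have hp2 : p = 2 := by
    have h3 : p ∣ 2 := by
      rw [← CharP.cast_eq_zero_iff F p 2]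
      exact_mod_cast h2
    exact (Nat.prime_dvd_prime_iff_eq hp Nat.prime_two).1 h3
  subst hp2
  have hf2 : 2 ≤ f := by
    by_contra h
    interval_cases f <;> omega
  obtain ⟨m, rfl⟩ := Nat.exists_eq_add_of_le hf2
  exact ⟨2 ^ m, by rw [hpf, pow_add]; norm_num⟩

variable {X : Subgroup (SU 4 F q)} (hG : ∀ g : SU 4 F q, IsMono g → g ∈ X)
include hG

/-- **Overgroups of the monomial group**: `n = 4`, `q ≥ 4` even. -/
theorem eq_top_four_even (h2 : (2 : F) = 0) (hq : 4 ≤ q) (hX : ∃ g ∈ X, ¬ IsMono g) : X = ⊤ := by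
  classical
  by_contra htop
  have hstar : ∀ y ∈ X, ∀ (k : Fin 4) (c : F), act y (Pi.single k 1) = c • Pi.single k 1 → IsMono y := by
    intro y hy k c hk
    by_contra hny
    exact htop (eq_top_of_fix hF hG (by omega) (by omega) hy hny hk)
  obtain ⟨g, hg, hgm⟩ := hX
  have hz := zero_free hF hG hstar hq hg hgm
  obtain ⟨κ, hκ⟩ : ∃ κ : Fin 4 → F, κ = fun i => ent g i 0 * ent g i 0 ^ q := ⟨_, rfl⟩
  have hκ0 : ∀ i, κ i ≠ 0 := fun i => by
    rw [hκ]; exact mul_ne_zero (hz i 0) (pow_ne_zero _ (hz i 0))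
  obtain ⟨d, hd, hsum⟩ := exists_sum_zero hF hκ0
  -- correct the determinant
  obtain ⟨k, hk⟩ := four_dvd hF h2 hq
  obtain ⟨c, hc⟩ : ∃ c, c = ∏ i, d i := ⟨_, rfl⟩
  have hcn : c * c ^ q = 1 := by
    rw [hc, ← Finset.prod_pow, ← Finset.prod_mul_distrib]
    exact Finset.prod_eq_one fun i _ => hd i
  have hlam : (c ^ k) * (c ^ k) ^ q = 1 := by
    rw [← pow_mul, mul_comm k q, pow_mul, ← mul_pow, hcn, one_pow]
  have hlam4 : (c ^ k) ^ 4 * c = 1 := by
    rw [← pow_mul, mul_comm k 4, ← hk, mul_comm]; exact hcn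
  obtain ⟨D, hD⟩ := exists_dg hF (n := 4) (fun i => c ^ k * d i) (by
    intro i
    rw [mul_pow]
    linear_combination (d i * d i ^ q) * hlam + hd i) (by
    rw [Finset.prod_mul_distrib, Finset.prod_const, Finset.card_univ, Fintype.card_fin, ← hc]
    exact hlam4)
  have hDX : D ∈ X := hG D hD.isMono
  have hyX : g⁻¹ * D * g ∈ X := X.mul_mem (X.mul_mem (X.inv_mem hg) hDX) hg
  have h00 : ent (g⁻¹ * D * g) 0 0 = 0 := by
    rw [ent_conj hF hD]
    have : ∀ i, c ^ k * d i * (ent g i 0 * ent g i 0 ^ q) = c ^ k * (d i * κ i) := by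
      intro i; rw [hκ]; ring
    rw [Finset.sum_congr rfl fun i _ => this i, ← Finset.mul_sum, hsum, mul_zero]
  have hym : IsMono (g⁻¹ * D * g) := by
    by_contra hnm
    exact zero_free hF hG hstar hq hyX hnm 0 0 h00
  obtain ⟨σ, e, he0, he⟩ := IsMono.exists_perm hym
  have hpow : (g⁻¹ * D * g) ^ (q + 1) = 1 := by
    have h3 : (g⁻¹ * D * g) ^ (q + 1) = g⁻¹ * D ^ (q + 1) * g := by
      have := conj_pow (i := q + 1) (a := g⁻¹) (b := D)
      rwa [inv_inv] at this
    have h4 : D ^ (q + 1) = 1 := by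
      apply ext_act
      intro x
      funext l
      rw [hD.pow, act_one]
      show (c ^ k * d l) ^ (q + 1) * x l = x l
      rw [pow_succ', mul_pow]
      linear_combination (x l * (d l * d l ^ q)) * hlam + (x l) * hd l
    rw [h3, h4]; group
  have hσ : σ ^ (q + 1) = 1 := perm_pow_eq_one he0 he (by
    rw [hpow]; exact ⟨fun _ => 1, fun j => by rw [act_one, one_smul]⟩)
  have hodd : Odd (q + 1) := ⟨2 * k, by omega⟩
  obtain ⟨s, hs⟩ := perm_fix σ (perm_cube hodd hσ)
  have h5 : act D (act g (Pi.single s 1)) = e s • act g (Pi.single s 1) := by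
    have h6 := congrArg (act g) (he s)
    rw [hs, act_mul, act_mul, act_act_inv, act_smul] at h6
    exact h6
  have h7 : ∀ i, c ^ k * d i = e s := by
    intro i
    have h8 := congrFun h5 i
    rw [hD, Pi.smul_apply, smul_eq_mul] at h8
    exact mul_right_cancel₀ (hz i s) h8
  have h9 := ent_conj hF hD g 0 0
  rw [h00] at h9
  have h10 : ∀ i, c ^ k * d i * (ent g i 0 * ent g i 0 ^ q) = e s * (ent g i 0 * ent g i 0 ^ q) :=
    fun i => by rw [h7]
  rw [Finset.sum_congr rfl fun i _ => h10 i, ← Finset.mul_sum, col_norm hF, mul_one] at h9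
  exact he0 s h9.symm

end

end Cfsg.Agent.H876.Four
end

private theorem dce_f5965b7f67f3 : _root_.True := by
  try have : _root_.True := by simp only [_root_.Cfsg.Agent.H876.Four.ent.eq_1]
  exact _root_.True.intro
end

-- part: H876/FourOdd
section
prune_inst 0x1140454000a2020000180004020020044c00059000000001d8200d4200423200200000010ca01c00800890402008002001440110425000000e00000000050020800052068208a10c660009802080000000000000000000000000000000051004000000000
set_option linter.all false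
open scoped Cfsg.Agent.FastGrp

/-!
# Overgroups of the monomial group of `SU_4(q)`, `q ≥ 5` odd: dihedral arguments
-/

set_option autoImplicit false

namespace Cfsg.Agent.H876.Four

open Cfsg Cfsg.Agent.LieClassical.HermBasic Cfsg.Agent.LieClassical.HermSiegel Cfsg.Agent.H927
open Cfsg.Agent.H876.MonoBasic Cfsg.Agent.H876.OddFrame

variable {F : Type*} [Field F] {q : ℕ}

/-- the element `-1` -/
def IsE (e : SU 4 F q) : Prop := ∀ x, act e x = -x

theorem IsE.comm {e : SU 4 F q} (he : IsE e) (g : SU 4 F q) : e * g = g * e := by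
  apply ext_act
  intro x
  rw [act_mul, act_mul, he, he, show -x = (-1 : F) • x by simp, act_smul]
  simp

theorem IsE.mul_self {e : SU 4 F q} (he : IsE e) : e * e = 1 := by
  apply ext_act
  intro x
  rw [act_mul, he, he, neg_neg, act_one]

theorem IsE.ne_one {e : SU 4 F q} (he : IsE e) (h2 : (2 : F) ≠ 0) : e ≠ 1 := by
  rintro rfl
  have h1 := congrFun (he (Pi.single 0 1)) 0
  rw [act_one, Pi.neg_apply, Pi.single_eq_same] at h1
  apply h2
  linear_combination h1

theorem IsE.isDiag {e : SU 4 F q} (he : IsE e) : IsDiag e :=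
  ⟨fun _ => -1, fun j => by rw [he]; simp⟩

theorem IsE.isB {e b : SU 4 F q} (he : IsE e) {i j k l : Fin 4} (hb : IsB b i j)
    (hij : i ≠ j) (hik : i ≠ k) (hil : i ≠ l) (hjk : j ≠ k) (hjl : j ≠ l) (hkl : k ≠ l) :
    IsB (e * b) k l := by
  intro x m
  rw [act_mul, he, Pi.neg_apply, hb]
  have hm : m = i ∨ m = j ∨ m = k ∨ m = l := by
    have : m ∈ (Finset.univ : Finset (Fin 4)) := Finset.mem_univ m
    rw [univ_four hij hik hil hjk hjl hkl] at this
    simpa using this
  rcases hm with rfl | rfl | rfl | rfl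
  · rw [if_pos (Or.inl rfl), if_neg (by tauto), neg_neg]
  · rw [if_pos (Or.inr rfl), if_neg (by
      rintro (h | h)
      · exact hjk h
      · exact hjl h), neg_neg]
  · rw [if_neg (by
      rintro (h | h)
      · exact hik h.symm
      · exact hjk h.symm), if_pos (Or.inl rfl)]
  · rw [if_neg (by
      rintro (h | h)
      · exact hil h.symm
      · exact hjl h.symm), if_pos (Or.inr rfl)]

theorem perm_invol : ∀ σ : Equiv.Perm (Fin 4), σ ^ 2 = 1 → ∃ a b c d : Fin 4, a ≠ b ∧ a ≠ c ∧ a ≠ d ∧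
    b ≠ c ∧ b ≠ d ∧ c ≠ d ∧ ∀ m, (σ m = a ∨ σ m = b) ↔ (m = a ∨ m = b) := by decide +kernel

section

variable [Fintype F] (hF : Fintype.card F = q ^ 2)
include hF

theorem exists_eps : ∃ e : SU 4 F q, IsE e := by
  obtain ⟨e, he⟩ := exists_dg (F := F) hF (n := 4) (fun _ => -1) (by
    intro i; rw [neg_pow_q hF, one_pow]; ring) (by rw [Fin.prod_univ_four]; ring)
  refine ⟨e, fun x => ?_⟩
  funext l
  rw [he, Pi.neg_apply]
  ring

variable {X : Subgroup (SU 4 F q)} (hG : ∀ g : SU 4 F q, IsMono g → g ∈ X)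
  (hstar : ∀ y ∈ X, ∀ (k : Fin 4) (c : F), act y (Pi.single k 1) = c • Pi.single k 1 → IsMono y)
  (h2 : (2 : F) ≠ 0)
include hG hstar h2

/-- (U) for `n = 4`. -/
theorem mono_of_conj4 (hq : 4 ≤ q) {g b : SU 4 F q} (hg : g ∈ X) {i j : Fin 4} (hij : i ≠ j)
    (hb : IsB b i j) (hm : IsMono (g⁻¹ * b * g)) : IsMono g := by
  classical
  by_contra hgm
  have hz := zero_free hF hG hstar hq hg hgm
  obtain ⟨s, hs⟩ : ∃ s, s = g⁻¹ * b * g := ⟨_, rfl⟩
  rw [← hs] at hm
  obtain ⟨σ, e, he0, he⟩ := IsMono.exists_perm hm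
  have hss : s ^ 2 = 1 := by
    have h3 := hb.mul_self
    rw [pow_two, hs]
    calc g⁻¹ * b * g * (g⁻¹ * b * g) = g⁻¹ * (b * b) * g := by group
      _ = 1 := by rw [h3]; group
  have hσ : σ ^ 2 = 1 := perm_pow_eq_one he0 he (by
    rw [hss]; exact ⟨fun _ => 1, fun j => by rw [act_one, one_smul]⟩)
  obtain ⟨m₁, m₂, m₃, m₄, n1, n2, n3, n4, n5, n6, hinv⟩ := perm_invol σ hσ
  obtain ⟨a, ha, ha4⟩ := exists_fourth hF hq
  obtain ⟨D, hD⟩ := exists_dg hF (n := 4) (fun m => if m = m₁ ∨ m = m₂ then a else a ^ q) (by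
    intro m
    split_ifs
    · exact ha
    · rw [pow_q_pow_q hF, mul_comm]; exact ha) (by
    rw [prod_four n1 n2 n3 n4 n5 n6, if_pos (Or.inl rfl), if_pos (Or.inr rfl), if_neg (by
      rintro (h | h)
      · exact n2 h.symm
      · exact n4 h.symm), if_neg (by
      rintro (h | h)
      · exact n3 h.symm
      · exact n5 h.symm)]
    linear_combination (a * a ^ q + 1) * ha)
  obtain ⟨δ, hδ⟩ : ∃ δ : Fin 4 → F, δ = fun m => if m = m₁ ∨ m = m₂ then a else a ^ q := ⟨_, rfl⟩
  rw [← hδ] at hD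
  have hδσ : ∀ m, δ (σ m) = δ m := by
    intro m
    rw [hδ]
    simp only [hinv]
  have hDs : D * s = s * D := by
    apply ext_act
    intro x
    funext l
    obtain ⟨m, rfl⟩ := σ.surjective l
    rw [act_mul, act_mul, hD, act_perm_apply he, act_perm_apply he, hD, hδσ]
    ring
  have hDX : D ∈ X := hG D hD.isMono
  obtain ⟨D₁, hD₁⟩ : ∃ D₁, D₁ = g * D * g⁻¹ := ⟨_, rfl⟩
  have hD₁X : D₁ ∈ X := by rw [hD₁]; exact X.mul_mem (X.mul_mem hg hDX) (X.inv_mem hg)
  have hD₁b : D₁ * b = b * D₁ := by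
    have h3 : b = g * s * g⁻¹ := by rw [hs]; group
    rw [h3, hD₁]
    calc g * D * g⁻¹ * (g * s * g⁻¹) = g * (D * s) * g⁻¹ := by group
      _ = g * (s * D) * g⁻¹ := by rw [hDs]
      _ = g * s * g⁻¹ * (g * D * g⁻¹) := by group
  have hD₁act : ∀ x, act b (act D₁ x) = act D₁ (act b x) := by
    intro x
    rw [← act_mul, ← act_mul, hD₁b]
  obtain ⟨k, l, k1, k2, k3, k4, k5⟩ := exists_two_others hij
  have hD₁m : IsMono D₁ := by
    by_contra hnm
    apply zero_free hF hG hstar hq hD₁X hnm i k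
    have h3 := hD₁act (Pi.single k 1)
    have h4 : act b (Pi.single k 1) = Pi.single k 1 := by
      rw [hb.single, if_neg (by
        rintro (h | h)
        · exact k1 h.symm
        · exact k3 h.symm), one_smul]
    rw [h4] at h3
    have h5 := congrFun h3 i
    rw [hb, if_pos (Or.inl rfl)] at h5
    have h6 : (2 : F) * act D₁ (Pi.single k 1) i = 0 := by linear_combination -h5
    exact (mul_eq_zero.1 h6).resolve_left h2
  obtain ⟨τ, f, hf0, hf⟩ := IsMono.exists_perm hD₁m
  have hτ : ∀ m, m = i ∨ m = j → τ m = i ∨ τ m = j := by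
    intro m hmij
    have h3 := hD₁act (Pi.single m 1)
    rw [hb.single, if_pos hmij, act_smul, hf, act_smul, hb.single] at h3
    by_contra hcon
    rw [if_neg hcon] at h3
    have h5 := congrFun h3 (τ m)
    simp only [Pi.smul_apply, Pi.single_eq_same, smul_eq_mul] at h5
    have h6 : (2 : F) * f m = 0 := by linear_combination h5
    exact (mul_ne_zero h2 (hf0 m)) h6
  have hrel : ∀ m i', δ m * ent g (τ i') m = f i' * ent g i' m := by
    intro m i'
    have h3 : act D₁ (act g (Pi.single m 1)) = δ m • act g (Pi.single m 1) := by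
      rw [hD₁, act_mul, act_mul, act_inv_act, hD.single, act_smul]
    have h4 := congrFun h3 (τ i')
    rw [act_perm_apply hf, Pi.smul_apply, smul_eq_mul] at h4
    exact h4.symm
  have hδ1 : δ m₁ = a := by rw [hδ]; exact if_pos (Or.inl rfl)
  have hδ3 : δ m₃ = a ^ q := by
    rw [hδ]
    exact if_neg (by
      rintro (h | h)
      · exact n2 h.symm
      · exact n4 h.symm)
  have hfin : (δ m₁) ^ 2 = (δ m₃) ^ 2 → False := by
    intro h
    rw [hδ1, hδ3] at h
    apply ha4
    linear_combination a ^ 2 * h + (a * a ^ q + 1) * ha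
  rcases hτ i (Or.inl rfl) with h | h
  · have h3 : ∀ m, δ m = f i := by
      intro m
      have h4 := hrel m i
      rw [h] at h4
      exact mul_right_cancel₀ (hz i m) h4
    exact hfin (by rw [h3, h3])
  · have hj : τ j = i := by
      rcases hτ j (Or.inr rfl) with h' | h'
      · exact h'
      · exact absurd (τ.injective (h.trans h'.symm)) hij
    have h3 : ∀ m, δ m ^ 2 = f i * f j := by
      intro m
      have h4 := hrel m i
      have h5 := hrel m j
      rw [h] at h4
      rw [hj] at h5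
      have h6 : (δ m ^ 2 - f i * f j) * ent g j m = 0 := by
        linear_combination δ m * h4 + f i * h5
      exact sub_eq_zero.1 ((mul_eq_zero.1 h6).resolve_right (hz j m))
    exact hfin (by rw [h3, h3])

/-- a monomial reflection of the dihedral group is diagonal -/
theorem dih_diag (hq : 4 ≤ q) {g b b0 : SU 4 F q} (hg : g ∈ X) {i j k l : Fin 4} (hij : i ≠ j)
    (hkl : k ≠ l) (hb : IsB b i j) (hb0 : IsB b0 k l) (r : ℕ)
    (hm : IsMono (b * (b * (g * b0 * g⁻¹)) ^ r)) : IsDiag (b * (b * (g * b0 * g⁻¹)) ^ r) := by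
  obtain ⟨b', hb'⟩ : ∃ b', b' = g * b0 * g⁻¹ := ⟨_, rfl⟩
  rw [← hb'] at hm ⊢
  have hbb := hb.mul_self
  have hbb' : b' * b' = 1 := by
    rw [hb']
    have h3 := hb0.mul_self
    calc g * b0 * g⁻¹ * (g * b0 * g⁻¹) = g * (b0 * b0) * g⁻¹ := by group
      _ = 1 := by rw [h3]; group
  have hbX : b ∈ X := hG b hb.isDiag.isMono
  have hb0X : b0 ∈ X := hG b0 hb0.isDiag.isMono
  have hb'X : b' ∈ X := by rw [hb']; exact X.mul_mem (X.mul_mem hg hb0X) (X.inv_mem hg)
  have hwX : b * b' ∈ X := X.mul_mem hbX hb'X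
  obtain ⟨t, ht⟩ := dih_conj hbb hbb' r
  have hwt : (b * b') ^ t ∈ X := X.pow_mem hwX t
  rcases ht with ht | ht
  · rw [ht] at hm ⊢
    exact isDiag_conj hb.isDiag (mono_of_conj4 hF hG hstar h2 hq hwt hij hb hm)
  · have h5 : ((b * b') ^ t)⁻¹ * b' * (b * b') ^ t =
        (g⁻¹ * (b * b') ^ t)⁻¹ * b0 * (g⁻¹ * (b * b') ^ t) := by
      generalize (b * b') ^ t = u
      rw [hb']; group
    rw [ht, h5] at hm
    rw [ht, h5]
    exact isDiag_conj hb0.isDiag (mono_of_conj4 hF hG hstar h2 hq (X.mul_mem (X.inv_mem hg) hwt)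
      hkl hb0 hm)

theorem dih_diag' (hq : 4 ≤ q) {g b b0 : SU 4 F q} (hg : g ∈ X) {i j k l : Fin 4} (hij : i ≠ j)
    (hkl : k ≠ l) (hb : IsB b i j) (hb0 : IsB b0 k l) (r : ℕ)
    (hm : IsMono (g⁻¹ * (b * (b * (g * b0 * g⁻¹)) ^ r) * g)) :
    IsDiag (g⁻¹ * (b * (b * (g * b0 * g⁻¹)) ^ r) * g) := by
  obtain ⟨b', hb'⟩ : ∃ b', b' = g * b0 * g⁻¹ := ⟨_, rfl⟩
  rw [← hb'] at hm ⊢
  have hbb := hb.mul_self
  have hbb' : b' * b' = 1 := by
    rw [hb']
    have h3 := hb0.mul_self
    calc g * b0 * g⁻¹ * (g * b0 * g⁻¹) = g * (b0 * b0) * g⁻¹ := by group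
      _ = 1 := by rw [h3]; group
  have hbX : b ∈ X := hG b hb.isDiag.isMono
  have hb0X : b0 ∈ X := hG b0 hb0.isDiag.isMono
  have hb'X : b' ∈ X := by rw [hb']; exact X.mul_mem (X.mul_mem hg hb0X) (X.inv_mem hg)
  have hwX : b * b' ∈ X := X.mul_mem hbX hb'X
  obtain ⟨t, ht⟩ := dih_conj hbb hbb' r
  have hwt : (b * b') ^ t ∈ X := X.pow_mem hwX t
  rcases ht with ht | ht
  · have e2 : g⁻¹ * (b * (b * b') ^ r) * g = ((b * b') ^ t * g)⁻¹ * b * ((b * b') ^ t * g) := by
      rw [ht]; group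
    rw [e2] at hm ⊢
    exact isDiag_conj hb.isDiag (mono_of_conj4 hF hG hstar h2 hq (X.mul_mem hwt hg) hij hb hm)
  · have e2 : g⁻¹ * (b * (b * b') ^ r) * g = (g⁻¹ * (b * b') ^ t * g)⁻¹ * b0 * (g⁻¹ * (b * b') ^ t * g) := by
      rw [ht]
      generalize (b * b') ^ t = u
      rw [hb']; group
    rw [e2] at hm ⊢
    exact isDiag_conj hb0.isDiag (mono_of_conj4 hF hG hstar h2 hq
      (X.mul_mem (X.mul_mem (X.inv_mem hg) hwt) hg) hkl hb0 hm)

/-- (O) for `n = 4` -/
theorem odd_order4 (hq : 4 ≤ q) {g b b0 e : SU 4 F q} (hg : g ∈ X) (hgm : ¬ IsMono g)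
    {i j k l : Fin 4} (hij : i ≠ j) (hkl : k ≠ l) (hb : IsB b i j) (hb0 : IsB b0 k l) (he : IsE e) :
    ∃ M, Odd M ∧ ((b * (g * b0 * g⁻¹)) ^ M = 1 ∨ (b * (g * b0 * g⁻¹)) ^ M = e) := by
  classical
  have hdd := dih_diag hF hG hstar h2 hq hg hij hkl hb hb0
  have hdd' := dih_diag' hF hG hstar h2 hq hg hij hkl hb hb0
  obtain ⟨b', hb'⟩ : ∃ b', b' = g * b0 * g⁻¹ := ⟨_, rfl⟩
  rw [← hb'] at hdd hdd' ⊢
  have hbb := hb.mul_self
  have hbb' : b' * b' = 1 := by
    rw [hb']
    have h3 := hb0.mul_self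
    calc g * b0 * g⁻¹ * (g * b0 * g⁻¹) = g * (b0 * b0) * g⁻¹ := by group
      _ = 1 := by rw [h3]; group
  have hbX : b ∈ X := hG b hb.isDiag.isMono
  have hb0X : b0 ∈ X := hG b0 hb0.isDiag.isMono
  have hb'X : b' ∈ X := by rw [hb']; exact X.mul_mem (X.mul_mem hg hb0X) (X.inv_mem hg)
  have hwX : b * b' ∈ X := X.mul_mem hbX hb'X
  by_cases hodd : Odd (orderOf (b * b'))
  · exact ⟨_, hodd, Or.inl (pow_orderOf_eq_one _)⟩
  rw [Nat.not_odd_iff_even] at hodd
  obtain ⟨m, hm⟩ := hodd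
  have hpos : 0 < orderOf (b * b') := orderOf_pos _
  obtain ⟨z, hz⟩ : ∃ z, z = (b * b') ^ m := ⟨_, rfl⟩
  have hz1 : z ≠ 1 := by
    rw [hz]
    exact pow_ne_one_of_lt_orderOf (by omega) (by omega)
  have hzz : z * z = 1 := by
    rw [hz, ← pow_add, ← hm, pow_orderOf_eq_one]
  have hzi : z⁻¹ = z := inv_eq_of_mul_eq_one_left hzz
  have hzX : z ∈ X := by rw [hz]; exact X.pow_mem hwX m
  have hzb : b * z = z * b := by
    have h3 := dih_key hbb hbb' m
    rw [← hz, hzi] at h3
    exact h3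
  have hzw : (b * b') * z = z * (b * b') := by
    rw [hz]; exact ((Commute.refl (b * b')).pow_right m).eq
  have hzb' : b' * z = z * b' := by
    have h3 : b' = b * (b * b') := by rw [← mul_assoc, hbb, one_mul]
    calc b' * z = b * (b * b') * z := by rw [← h3]
      _ = b * (z * (b * b')) := by rw [mul_assoc, hzw]
      _ = z * b * (b * b') := by rw [← mul_assoc, hzb]
      _ = z * b' := by rw [mul_assoc, ← h3]
  have hzm : IsMono z := by
    apply mono_of_conj4 hF hG hstar h2 hq hzX hij hb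
    have h3 : z⁻¹ * b * z = b := by rw [mul_assoc, hzb, ← mul_assoc, inv_mul_cancel, one_mul]
    rw [h3]; exact hb.isDiag.isMono
  obtain ⟨z', hz'⟩ : ∃ z', z' = g⁻¹ * z * g := ⟨_, rfl⟩
  have hz'X : z' ∈ X := by rw [hz']; exact X.mul_mem (X.mul_mem (X.inv_mem hg) hzX) hg
  have hz'm : IsMono z' := by
    apply mono_of_conj4 hF hG hstar h2 hq hz'X hkl hb0
    have h3 : z'⁻¹ * b0 * z' = b0 := by
      have h5 : z⁻¹ * b' * z = b' := by rw [mul_assoc, hzb', ← mul_assoc, inv_mul_cancel, one_mul]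
      have h6 : z'⁻¹ * b0 * z' = g⁻¹ * (z⁻¹ * (g * b0 * g⁻¹) * z) * g := by rw [hz']; group
      rw [h6, ← hb', h5, hb']; group
    rw [h3]; exact hb0.isDiag.isMono
  have hzd : IsDiag z := by
    have h4 := hdd m
    rw [← hz] at h4
    have h5 : z = b * (b * z) := by rw [← mul_assoc, hbb, one_mul]
    rw [h5]
    exact hb.isDiag.mul (h4 (IsMono.mul hb.isDiag.isMono hzm))
  have hzd' : IsDiag z' := by
    have e0 : b0 * z' = g⁻¹ * (b' * z) * g := by rw [hz', hb']; group
    have e1 : b' * z = b * (b * b') ^ (m + 1) := by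
      rw [hz, pow_succ', ← mul_assoc, ← mul_assoc, hbb, one_mul]
    have h4 := hdd' (m + 1)
    rw [← e1, ← e0] at h4
    have hbb0 := hb0.mul_self
    have h5 : z' = b0 * (b0 * z') := by rw [← mul_assoc, hbb0, one_mul]
    rw [h5]
    exact hb0.isDiag.mul (h4 (IsMono.mul hb0.isDiag.isMono hz'm))
  have hzf := zero_free hF hG hstar hq hg hgm
  obtain ⟨ζ, hζ⟩ := exists_dg_of_isDiag hzd
  obtain ⟨ζ', hζ'⟩ := exists_dg_of_isDiag hzd'
  have hζeq : ∀ a c, ζ a = ζ' c := by
    intro a c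
    have h3 : act z (act g (Pi.single c 1)) = act g (act z' (Pi.single c 1)) := by
      rw [hz', act_mul, act_mul, act_act_inv]
    have h4 := congrFun h3 a
    rw [hζ, hζ'.single, act_smul, Pi.smul_apply, smul_eq_mul] at h4
    exact mul_right_cancel₀ (hzf a c) h4
  have hζ2 : ζ 0 = 1 ∨ ζ 0 = -1 := by
    have h3 : act (z * z) (Pi.single 0 1) = Pi.single 0 1 := by rw [hzz, act_one]
    have h4 := congrFun h3 0
    rw [act_mul, hζ, hζ, Pi.single_eq_same] at h4
    exact mul_self_eq_one_iff.1 (by linear_combination h4)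
  have hze : z = e := by
    rcases hζ2 with h3 | h3
    · exfalso
      apply hz1
      apply ext_act
      intro x
      funext a
      rw [hζ, hζeq a 0, ← hζeq 0 0, h3, one_mul, act_one]
    · apply ext_act
      intro x
      funext a
      rw [hζ, hζeq a 0, ← hζeq 0 0, h3, he, Pi.neg_apply, neg_one_mul]
  by_cases hmo : Odd m
  · exact ⟨m, hmo, Or.inr (by rw [← hz, hze])⟩
  exfalso
  rw [Nat.not_odd_iff_even] at hmo
  obtain ⟨r, hr⟩ := hmo
  obtain ⟨v, hv⟩ : ∃ v, v = (b * b') ^ r := ⟨_, rfl⟩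
  have hvX : v ∈ X := by rw [hv]; exact X.pow_mem hwX r
  have hvv : v * v = e := by rw [hv, ← pow_add, ← hr, ← hz, hze]
  have hbv : b * v = v⁻¹ * b := by rw [hv]; exact dih_key hbb hbb' r
  have hvi : v⁻¹ = e * v := by
    apply inv_eq_of_mul_eq_one_left
    rw [mul_assoc, hvv, he.mul_self]
  have hv0 : ent v i i = 0 := by
    have h3 : act b (act v (Pi.single i 1)) = act v (Pi.single i 1) := by
      rw [← act_mul, hbv, hvi, act_mul, act_mul, he, hb.single, if_pos (Or.inl rfl), neg_one_smul,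
        OddOdd.act_neg, neg_neg]
    have h4 := congrFun h3 i
    rw [hb, if_pos (Or.inl rfl)] at h4
    have h6 : (2 : F) * act v (Pi.single i 1) i = 0 := by linear_combination -h4
    exact (mul_eq_zero.1 h6).resolve_left h2
  have hvm : IsMono v := by
    by_contra hnm
    exact zero_free hF hG hstar hq hvX hnm i i hv0
  have hvd : IsDiag v := by
    have h4 := hdd r
    rw [← hv] at h4
    have h5 : v = b * (b * v) := by rw [← mul_assoc, hbb, one_mul]
    rw [h5]
    exact hb.isDiag.mul (h4 (IsMono.mul hb.isDiag.isMono hvm))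
  obtain ⟨β, hβ⟩ := exists_dg_of_isDiag hvd
  have hcomm : b * v = v * b := by
    apply ext_act
    intro x
    funext a
    rw [act_mul, act_mul, hb, hβ, hβ, hb]
    split_ifs <;> ring
  rw [hcomm] at hbv
  have h3 : v = v⁻¹ := mul_right_cancel hbv
  apply he.ne_one h2
  rw [← hvv]
  conv_lhs => arg 1; rw [h3]
  exact inv_mul_cancel v

end

end Cfsg.Agent.H876.Four
end

-- part: H876/FourThree
section
prune_inst 0x140044000a2020000180004020020044c00059000000001d8600d4200427200200000010ca01c00801890402008002001440110425000000e00000000050020800252049208a10c660009802080000000000000000000000000000000051004000000000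
set_option linter.all false
open scoped Cfsg.Agent.FastGrp

/-!
# Overgroups of the monomial group of `SU_4(q)`, `q ≥ 5` odd: elements of order three
-/

set_option autoImplicit false

namespace Cfsg.Agent.H876.Four

open Cfsg Cfsg.Agent.LieClassical.HermBasic Cfsg.Agent.LieClassical.HermSiegel Cfsg.Agent.H927
open Cfsg.Agent.H876.MonoBasic Cfsg.Agent.H876.OddFrame

variable {F : Type*} [Field F] {q : ℕ}

theorem pairs : ∀ i j k l : Fin 4, i ≠ j → k ≠ l →
    (∀ m, (m = k ∨ m = l) ↔ (m = i ∨ m = j)) ∨ (∀ m, (m = k ∨ m = l) ↔ ¬ (m = i ∨ m = j)) ∨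
      ∃ a b : Fin 4, a ≠ b ∧ ∀ m, (m = a ∨ m = b) ↔ ¬ ((m = k ∨ m = l) ↔ (m = i ∨ m = j)) := by
  decide +kernel

section

variable [Fintype F] (hF : Fintype.card F = q ^ 2)
include hF

variable {X : Subgroup (SU 4 F q)} (hG : ∀ g : SU 4 F q, IsMono g → g ∈ X)
  (hstar : ∀ y ∈ X, ∀ (k : Fin 4) (c : F), act y (Pi.single k 1) = c • Pi.single k 1 → IsMono y)
  (h2 : (2 : F) ≠ 0)
include hG hstar h2

/-- (C) for `n = 4`: conjugating involution -/
theorem exists_conj4 (hq : 4 ≤ q) {g b b0 : SU 4 F q} (hg : g ∈ X) (hgm : ¬ IsMono g)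
    {i j k l : Fin 4} (hij : i ≠ j) (hkl : k ≠ l) (hb : IsB b i j) (hb0 : IsB b0 k l) {M : ℕ}
    (hM : Odd M) (hpow : (b * (g * b0 * g⁻¹)) ^ M = 1) :
    ∃ c ∈ X, c * c = 1 ∧ c * b * c = g * b0 * g⁻¹ ∧ IsMono (c * g) ∧
      ∃ v ∈ X, ¬ IsMono v ∧ c = v⁻¹ * b * v := by
  classical
  obtain ⟨b', hb'⟩ : ∃ b', b' = g * b0 * g⁻¹ := ⟨_, rfl⟩
  rw [← hb'] at hpow ⊢
  have hbb := hb.mul_self
  have hbb' : b' * b' = 1 := by
    rw [hb']
    have h3 := hb0.mul_self
    calc g * b0 * g⁻¹ * (g * b0 * g⁻¹) = g * (b0 * b0) * g⁻¹ := by group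
      _ = 1 := by rw [h3]; group
  have hbX : b ∈ X := hG b hb.isDiag.isMono
  have hb0X : b0 ∈ X := hG b0 hb0.isDiag.isMono
  have hb'X : b' ∈ X := by rw [hb']; exact X.mul_mem (X.mul_mem hg hb0X) (X.inv_mem hg)
  have hwX : b * b' ∈ X := X.mul_mem hbX hb'X
  obtain ⟨m, hm⟩ := hM
  obtain ⟨s, hs⟩ : ∃ s, (b * b') ^ (2 * s) = (b * b') ^ (m + 1) := by
    rcases Nat.even_or_odd' (m + 1) with ⟨s, hs | hs⟩
    · exact ⟨s, by rw [hs]⟩
    · refine ⟨s + m + 1, ?_⟩
      have h3 : 2 * (s + m + 1) = (m + 1) + M := by rw [hm]; omega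
      rw [h3, pow_add, hpow, mul_one]
  obtain ⟨v, hv⟩ : ∃ v, v = (b * b') ^ s := ⟨_, rfl⟩
  have hvX : v ∈ X := by rw [hv]; exact X.pow_mem hwX s
  have hc0 : v⁻¹ * b * v = b * (b * b') ^ (m + 1) := by
    rw [← hs, hv, ← dih_key hbb hbb', two_mul, pow_add, mul_assoc]
  obtain ⟨c, hc⟩ : ∃ c, c = v⁻¹ * b * v := ⟨_, rfl⟩
  have hcc : c * c = 1 := by
    rw [hc]
    calc v⁻¹ * b * v * (v⁻¹ * b * v) = v⁻¹ * (b * b) * v := by group
      _ = 1 := by rw [hbb]; group
  have hcbc : c * b * c = b' := by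
    rw [hc, hc0]
    have h3 : b * (b * b') ^ (m + 1) * b * (b * (b * b') ^ (m + 1)) =
        b * ((b * b') ^ (m + 1) * (b * b) * (b * b') ^ (m + 1)) := by group
    have h4 : m + 1 + (m + 1) = M + 1 := by rw [hm]; omega
    rw [h3, hbb, mul_one, ← pow_add, h4, pow_add, hpow, pow_one, one_mul, ← mul_assoc, hbb, one_mul]
  have hvm : ¬ IsMono v := by
    intro hvm
    have hcm : IsMono c := by
      rw [hc]; exact IsMono.mul (IsMono.mul (IsMono.inv hvm) hb.isDiag.isMono) hvm
    have hb'm : IsMono b' := by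
      rw [← hcbc]; exact IsMono.mul (IsMono.mul hcm hb.isDiag.isMono) hcm
    apply hgm
    rw [← isMono_inv_iff]
    refine mono_of_conj4 hF hG hstar h2 hq (X.inv_mem hg) hkl hb0 ?_
    rw [inv_inv, ← hb']
    exact hb'm
  have hcX : c ∈ X := by
    rw [hc]; exact X.mul_mem (X.mul_mem (X.inv_mem hvX) hbX) hvX
  refine ⟨c, hcX, hcc, hcbc, ?_, v, hvX, hvm, hc⟩
  refine mono_of_conj4 hF hG hstar h2 hq (X.mul_mem hcX hg) hij hb ?_
  have hci : c⁻¹ = c := inv_eq_of_mul_eq_one_left hcc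
  have h3 : (c * g)⁻¹ * b * (c * g) = g⁻¹ * (c * b * c) * g := by
    rw [mul_inv_rev, hci]; group
  have h4 : (c * g)⁻¹ * b * (c * g) = b0 := by
    rw [h3, hcbc, hb']; group
  rw [h4]
  exact hb0.isDiag.isMono

theorem exists_conj4' (hq : 4 ≤ q) {g b b0 e : SU 4 F q} (hg : g ∈ X) (hgm : ¬ IsMono g)
    {i j k l : Fin 4} (hij : i ≠ j) (hkl : k ≠ l) (hb : IsB b i j) (hb0 : IsB b0 k l) (he : IsE e) :
    ∃ b₁, (b₁ = b0 ∨ b₁ = e * b0) ∧ ∃ c ∈ X, c * c = 1 ∧ c * b * c = g * b₁ * g⁻¹ ∧ IsMono (c * g) ∧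
      ∃ v ∈ X, ¬ IsMono v ∧ c = v⁻¹ * b * v := by
  obtain ⟨M, hM, h | h⟩ := odd_order4 hF hG hstar h2 hq hg hgm hij hkl hb hb0 he
  · exact ⟨b0, Or.inl rfl, exists_conj4 hF hG hstar h2 hq hg hgm hij hkl hb hb0 hM h⟩
  · obtain ⟨k', l', n1, n2, n3, n4, n5⟩ := exists_two_others hkl
    refine ⟨e * b0, Or.inr rfl, exists_conj4 hF hG hstar h2 hq hg hgm hij n5 hb
      (he.isB hb0 hkl n1 n2 n3 n4 n5) hM ?_⟩
    have h3 : b * (g * (e * b0) * g⁻¹) = e * (b * (g * b0 * g⁻¹)) := by
      have e1 : g * (e * b0) = e * (g * b0) := by rw [← mul_assoc, ← he.comm g, mul_assoc]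
      rw [e1, mul_assoc e, ← mul_assoc b e, ← he.comm b, mul_assoc]
    have h4 : e ^ M = e := by
      obtain ⟨m, rfl⟩ := hM
      rw [pow_succ, pow_mul, pow_two, he.mul_self, one_pow, one_mul]
    rw [h3, (show Commute e (b * (g * b0 * g⁻¹)) from he.comm _).mul_pow, h, h4, he.mul_self]

/-- the product of two conjugating involutions has odd order up to sign -/
theorem odd_prod4 (hq : 4 ≤ q) {b v₁ v₂ e : SU 4 F q} (hv₁ : v₁ ∈ X) (hv₂ : v₂ ∈ X)
    (hvm : ¬ IsMono v₁) {i j : Fin 4} (hij : i ≠ j) (hb : IsB b i j) (he : IsE e)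
    (hy : IsMono (v₁⁻¹ * b * v₁ * (v₂⁻¹ * b * v₂))) (hy1 : v₁⁻¹ * b * v₁ * (v₂⁻¹ * b * v₂) ≠ 1)
    (hye : v₁⁻¹ * b * v₁ * (v₂⁻¹ * b * v₂) ≠ e) :
    ∃ M, Odd M ∧ ((v₁⁻¹ * b * v₁ * (v₂⁻¹ * b * v₂)) ^ M = 1 ∨
      (v₁⁻¹ * b * v₁ * (v₂⁻¹ * b * v₂)) ^ M = e) := by
  classical
  obtain ⟨y, hyd⟩ : ∃ y, y = v₁⁻¹ * b * v₁ * (v₂⁻¹ * b * v₂) := ⟨_, rfl⟩
  rw [← hyd] at hy hy1 hye ⊢
  obtain ⟨h, hh⟩ : ∃ h, h = v₁ * v₂⁻¹ := ⟨_, rfl⟩
  have hhX : h ∈ X := by rw [hh]; exact X.mul_mem hv₁ (X.inv_mem hv₂)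
  have hyh : y = v₁⁻¹ * (b * (h * b * h⁻¹)) * v₁ := by rw [hyd, hh]; group
  by_cases hhm : IsMono h
  · exfalso
    obtain ⟨σ, d, hd0, hd⟩ := IsMono.exists_perm hhm
    have hb' : IsB (h * b * h⁻¹) (σ i) (σ j) := hb.conj_perm hd
    rcases pairs i j (σ i) (σ j) hij (fun h => hij (σ.injective h)) with h3 | h3 | ⟨a, c, hac, h3⟩
    · apply hy1
      have h4 : b * (h * b * h⁻¹) = 1 := by
        apply ext_act
        intro x
        funext l
        rw [act_mul, hb, hb', act_one]
        simp only [h3]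
        split_ifs <;> ring
      rw [hyh, h4]; group
    · apply hye
      have h4 : b * (h * b * h⁻¹) = e := by
        apply ext_act
        intro x
        funext l
        rw [act_mul, hb, hb', he, Pi.neg_apply]
        simp only [h3]
        split_ifs <;> ring
      rw [hyh, h4, mul_assoc, he.comm, ← mul_assoc, inv_mul_cancel, one_mul]
    · have h4 : IsB (b * (h * b * h⁻¹)) a c := by
        intro x l
        rw [act_mul, hb, hb']
        by_cases hP : l = σ i ∨ l = σ j
        · by_cases hQ : l = i ∨ l = j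
          · rw [if_pos hQ, if_pos hP, if_neg (fun h => (h3 l).1 h (iff_of_true hP hQ)), neg_neg]
          · rw [if_neg hQ, if_pos hP, if_pos ((h3 l).2 (fun h => hQ (h.1 hP)))]
        · by_cases hQ : l = i ∨ l = j
          · rw [if_pos hQ, if_neg hP, if_pos ((h3 l).2 (fun h => hP (h.2 hQ)))]
          · rw [if_neg hQ, if_neg hP, if_neg (fun h => (h3 l).1 h (iff_of_false hP hQ))]
      exact hvm (mono_of_conj4 hF hG hstar h2 hq hv₁ hac h4 (by rw [← hyh]; exact hy))
  · obtain ⟨M, hM, h1⟩ := odd_order4 hF hG hstar h2 hq hhX hhm hij hij hb hb he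
    refine ⟨M, hM, ?_⟩
    have h3 : y ^ M = v₁⁻¹ * (b * (h * b * h⁻¹)) ^ M * v₁ := by
      rw [hyh]
      have := conj_pow (i := M) (a := v₁⁻¹) (b := b * (h * b * h⁻¹))
      rwa [inv_inv] at this
    rcases h1 with h1 | h1
    · left; rw [h3, h1]; group
    · right; rw [h3, h1, mul_assoc, he.comm, ← mul_assoc, inv_mul_cancel, one_mul]

/-- **(P3)** elements of order three permuting both frames -/
theorem three_cycles (hq : 4 ≤ q) {g : SU 4 F q} (hg : g ∈ X) (hgm : ¬ IsMono g) :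
    ∃ σ τ : Equiv.Perm (Fin 4), σ ^ 3 = 1 ∧ σ ≠ 1 ∧ τ ^ 3 = 1 ∧ τ ≠ 1 ∧
      ∀ i j, ent g (σ i) (τ j) * ent g (σ i) (τ j) ^ q = ent g i j * ent g i j ^ q := by
  classical
  have hzf := zero_free hF hG hstar hq hg hgm
  obtain ⟨e, he⟩ := exists_eps (F := F) hF
  have h01 : (0 : Fin 4) ≠ 1 := by decide
  have h02 : (0 : Fin 4) ≠ 2 := by decide
  have h12 : (1 : Fin 4) ≠ 2 := by decide
  obtain ⟨b, hb⟩ := exists_B (F := F) hF h01
  obtain ⟨b', hb'⟩ := exists_B (F := F) hF h02
  obtain ⟨b₁, hb₁, c₁, hc₁X, hcc₁, hcb₁, hcm₁, v₁, hv₁X, hvm₁, hv₁⟩ :=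
    exists_conj4' hF hG hstar h2 hq hg hgm h01 h01 hb hb he
  obtain ⟨b₂, hb₂, c₂, hc₂X, hcc₂, hcb₂, hcm₂, v₂, hv₂X, hvm₂, hv₂⟩ :=
    exists_conj4' hF hG hstar h2 hq hg hgm h01 h02 hb hb' he
  have hci₁ : c₁⁻¹ = c₁ := inv_eq_of_mul_eq_one_left hcc₁
  have hci₂ : c₂⁻¹ = c₂ := inv_eq_of_mul_eq_one_left hcc₂
  obtain ⟨y, hy⟩ : ∃ y, y = c₁ * c₂ := ⟨_, rfl⟩
  obtain ⟨y', hy'⟩ : ∃ y', y' = g⁻¹ * y * g := ⟨_, rfl⟩
  have hym : IsMono y := by
    have h3 : y = (c₁ * g) * (c₂ * g)⁻¹ := by rw [hy, mul_inv_rev, hci₂]; group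
    rw [h3]; exact IsMono.mul hcm₁ (IsMono.inv hcm₂)
  have hym' : IsMono y' := by
    have h3 : y' = (c₁ * g)⁻¹ * (c₂ * g) := by rw [hy', hy, mul_inv_rev, hci₁]; group
    rw [h3]; exact IsMono.mul (IsMono.inv hcm₁) hcm₂
  -- the two conjugates are different
  have hbne : b₁ ≠ b₂ := by
    intro h
    have hsgn : ∀ k, (k = 1 ∨ k = 3) → act b' (Pi.single k 1) = Pi.single k 1 := by
      intro k hk
      rw [hb'.single, if_neg (by rcases hk with rfl | rfl <;> decide), one_smul]
    have a0 : act b (Pi.single 0 1) = -Pi.single 0 1 := by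
      rw [hb.single, if_pos (by decide), neg_one_smul]
    have a1 : act b (Pi.single 1 1) = -Pi.single 1 1 := by
      rw [hb.single, if_pos (by decide), neg_one_smul]
    have a0' : act b' (Pi.single 0 1) = -Pi.single 0 1 := by
      rw [hb'.single, if_pos (by decide), neg_one_smul]
    have a1' : act b' (Pi.single 1 1) = Pi.single 1 1 := hsgn 1 (Or.inl rfl)
    have hns : ∀ k : Fin 4, (Pi.single k 1 : Fin 4 → F) ≠ -Pi.single k 1 := by
      intro k hk
      have h3 := congrFun hk k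
      rw [Pi.neg_apply, Pi.single_eq_same] at h3
      apply h2; linear_combination h3
    have q0 : act b₁ (Pi.single 0 1) = act b₂ (Pi.single 0 1) := by rw [h]
    have q1 : act b₁ (Pi.single 1 1) = act b₂ (Pi.single 1 1) := by rw [h]
    rcases hb₁ with r1 | r1 <;> rcases hb₂ with r2 | r2 <;> rw [r1, r2] at q0 q1
    · rw [a1, a1'] at q1; exact hns 1 q1.symm
    · rw [act_mul, he, a0, a0', neg_neg] at q0; exact hns 0 q0.symm
    · rw [act_mul, he, a0, a0', neg_neg] at q0; exact hns 0 q0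
    · rw [act_mul, act_mul, he, he, a1, a1', neg_neg] at q1; exact hns 1 q1
  have hconj_ne : c₁ * b * c₁ ≠ c₂ * b * c₂ := by
    intro h
    rw [hcb₁, hcb₂] at h
    exact hbne (by simpa using h)
  have hy1 : y ≠ 1 := by
    intro h
    have h3 : c₁ = c₂ := by
      have : c₁ * c₂ = 1 := by rw [← hy, h]
      rw [← hci₂]; exact eq_inv_of_mul_eq_one_left this
    exact hconj_ne (by rw [h3])
  have hye : y ≠ e := by
    intro h
    have h3 : c₁ = e * c₂ := by
      rw [← h, hy, mul_assoc, hcc₂, mul_one]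
    apply hconj_ne
    rw [h3]
    calc e * c₂ * b * (e * c₂) = e * (c₂ * b * e) * c₂ := by group
      _ = e * (e * (c₂ * b)) * c₂ := by rw [he.comm (c₂ * b)]
      _ = (e * e) * (c₂ * b * c₂) := by group
      _ = c₂ * b * c₂ := by rw [he.mul_self, one_mul]
  obtain ⟨M, hM, hpow⟩ : ∃ M, Odd M ∧ (y ^ M = 1 ∨ y ^ M = e) := by
    have h3 : y = v₁⁻¹ * b * v₁ * (v₂⁻¹ * b * v₂) := by rw [hy, hv₁, hv₂]
    rw [h3]
    rw [h3] at hym hy1 hye
    exact odd_prod4 hF hG hstar h2 hq hv₁X hv₂X hvm₁ h01 hb he hym hy1 hye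
  have hyM : IsDiag (y ^ M) := by
    rcases hpow with h | h
    · rw [h]; exact ⟨fun _ => 1, fun j => by rw [act_one, one_smul]⟩
    · rw [h]; exact he.isDiag
  have hyM' : IsDiag (y' ^ M) := by
    have h3 : y' ^ M = g⁻¹ * y ^ M * g := by
      rw [hy']
      have := conj_pow (i := M) (a := g⁻¹) (b := y)
      rwa [inv_inv] at this
    rcases hpow with h | h
    · rw [h3, h]
      exact ⟨fun _ => 1, fun j => by rw [mul_one, inv_mul_cancel, act_one, one_smul]⟩
    · rw [h3, h, mul_assoc, he.comm, ← mul_assoc, inv_mul_cancel, one_mul]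
      exact he.isDiag
  obtain ⟨σ, α, hα0, hα⟩ := IsMono.exists_perm hym
  obtain ⟨τ, β, hβ0, hβ⟩ := IsMono.exists_perm hym'
  have hσ3 := perm_cube hM (perm_pow_eq_one hα0 hα hyM)
  have hτ3 := perm_cube hM (perm_pow_eq_one hβ0 hβ hyM')
  have hrel : ∀ i j, α i * ent g i j = β j * ent g (σ i) (τ j) := by
    intro i j
    have h3 : act y (act g (Pi.single j 1)) = act g (act y' (Pi.single j 1)) := by
      rw [hy', act_mul, act_mul, act_act_inv]
    have h4 := congrFun h3 (σ i)
    rw [act_perm_apply hα, hβ, act_smul, Pi.smul_apply, smul_eq_mul] at h4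
    exact h4
  -- `y` is not scalar
  have hsc : ∀ lam : F, ¬ ∀ x, act y x = lam • x := by
    intro lam h
    have h3 : ∀ x, act c₁ x = lam • act c₂ x := by
      intro x
      rw [← h, hy, act_mul, ← act_mul c₂ c₂, hcc₂, act_one]
    have h4 : lam * lam = 1 := by
      have h5 := h3 (lam • act c₂ (Pi.single 0 1))
      rw [← h3, ← act_mul, hcc₁, act_one, h3, act_smul, ← act_mul c₂ c₂, hcc₂, act_one] at h5
      have h6 := congrFun h5 0
      simp only [Pi.smul_apply, Pi.single_eq_same, smul_eq_mul, mul_one] at h6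
      exact h6.symm
    rcases mul_self_eq_one_iff.1 h4 with h5 | h5
    · apply hy1
      apply ext_act
      intro x
      rw [h, h5, one_smul, act_one]
    · apply hye
      apply ext_act
      intro x
      rw [h, h5, neg_one_smul, he]
  refine ⟨σ, τ, hσ3, ?_, hτ3, ?_, ?_⟩
  · intro hσ1
    obtain ⟨s, hs⟩ := perm_fix τ hτ3
    apply hsc (β s)
    have h3 : ∀ i, α i = β s := by
      intro i
      have h4 := hrel i s
      rw [hσ1, hs, Equiv.Perm.one_apply] at h4
      exact mul_right_cancel₀ (hzf i s) h4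
    intro x
    funext l
    have h5 := act_perm_apply hα x l
    rw [hσ1, Equiv.Perm.one_apply, h3] at h5
    exact h5
  · intro hτ1
    obtain ⟨r, hr⟩ := perm_fix σ hσ3
    have h3 : ∀ j, β j = α r := by
      intro j
      have h4 := hrel r j
      rw [hτ1, hr, Equiv.Perm.one_apply] at h4
      exact (mul_right_cancel₀ (hzf r j) h4).symm
    have h4 : ∀ x, act y' x = α r • x := by
      intro x
      funext l
      have h5 := act_perm_apply hβ x l
      rw [hτ1, Equiv.Perm.one_apply, h3] at h5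
      exact h5
    apply hsc (α r)
    intro x
    have h5 : y = g * y' * g⁻¹ := by rw [hy']; group
    rw [h5, act_mul, act_mul, h4, act_smul, act_act_inv]
  · intro i j
    have hN : ∀ {y : SU 4 F q} {σ : Equiv.Perm (Fin 4)} {α : Fin 4 → F},
        (∀ j, act y (Pi.single j 1) = α j • Pi.single (σ j) 1) → ∀ i, α i * α i ^ q = 1 := by
      intro y σ α hα i
      have h3 := herm_act y (Pi.single i 1) (Pi.single i (1 : F))
      rw [hα, herm_smul_left, herm_smul_right, herm_single_self hF, herm_single_self hF, mul_one] at h3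
      exact h3
    have h3 := congrArg (fun x => x * x ^ q) (hrel i j)
    simp only [Cfsg.Agent.LieClassical.HermBasic.norm_mul] at h3
    rw [hN hα i, hN hβ j, one_mul, one_mul] at h3
    exact h3.symm

end

end Cfsg.Agent.H876.Four
end

-- part: H876/FourFinal
section
prune_inst 0x1140454024a2020000180004020000042c00059000000800d8200d4208433202200501010ab01c0080ce32c07008002001440140424800000e00340000070020808810062000000c46000f802080000000000000000000000000000000051004000000000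
set_option linter.all false
open scoped Cfsg.Agent.FastGrp

/-!
# Overgroups of the monomial group of `SU_4(q)`, `q ≥ 5` odd
-/

set_option autoImplicit false

namespace Cfsg.Agent.H876.Four

open Cfsg Cfsg.Agent.LieClassical.HermBasic Cfsg.Agent.LieClassical.HermSiegel Cfsg.Agent.H927
open Cfsg.Agent.H876.MonoBasic Cfsg.Agent.H876.OddFrame

variable {F : Type*} [Field F] {q : ℕ}

/-- norms of the entries -/
def K (g : SU 4 F q) (i k : Fin 4) : F := ent g i k * ent g i k ^ q

theorem three_comb : ∀ σ τ : Equiv.Perm (Fin 4), σ ^ 3 = 1 → σ ≠ 1 → τ ^ 3 = 1 → τ ≠ 1 →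
    (∃ r a b c : Fin 4, r ≠ a ∧ r ≠ b ∧ r ≠ c ∧ a ≠ b ∧ a ≠ c ∧ b ≠ c ∧ σ r = r ∧ τ a = b ∧ τ b = c) ∨
    (∃ r s j j' : Fin 4, r ≠ s ∧ r ≠ j ∧ r ≠ j' ∧ s ≠ j ∧ s ≠ j' ∧ j ≠ j' ∧ σ r = r ∧ σ s = j ∧
      ((τ j' = j ∧ τ j = r) ∨ τ j = j')) := by
  (set_option synthInstance.maxSize 100000 in exact Cfsg.Agent.Lib.Refl.of (by decide +kernel))

section

variable [Fintype F] (hF : Fintype.card F = q ^ 2)
include hF

theorem K_sum (g : SU 4 F q) (k : Fin 4) : ∑ i, K g i k = 1 := col_norm hF g k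

/-- the conjugates of a homology. -/
theorem exists_hom_conj {g : SU 4 F q} (hz : ∀ i j, ent g i j ≠ 0) (k : Fin 4) {lam : F}
    (hlam : lam * lam ^ q = 1) (hlam4 : lam ^ 4 ≠ 1) :
    ∃ d : SU 4 F q, IsMono d ∧ ¬ IsMono (g * d * g⁻¹) ∧
      ∀ i j, i ≠ j → K (g * d * g⁻¹) i j =
        (2 - lam ^ 4 - (lam ^ 4) ^ q) * (K g i k * K g j k) := by
  obtain ⟨d, hd, hact⟩ := exists_hom hF k hlam
  have hs := hom_ne hF hlam hlam4
  have hent : ∀ i j, i ≠ j → ent (g * d * g⁻¹) i j =
      ((lam ^ q) ^ 3 - lam) * (ent g j k ^ q * ent g i k) := by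
    intro i j hij
    have h1 : act (g * d * g⁻¹) (Pi.single j 1) =
        lam • Pi.single j 1 + (((lam ^ q) ^ 3 - lam) * act g⁻¹ (Pi.single j 1) k) • act g (Pi.single k 1) := by
      rw [act_mul, act_mul, hact, act_add, act_smul, act_act_inv, act_smul]
    have h2 : act g⁻¹ (Pi.single j 1) k = ent g j k ^ q := ent_inv hF g j k
    rw [ent, h1, h2, Pi.add_apply, Pi.smul_apply, Pi.smul_apply, Pi.single_eq_of_ne hij, smul_zero,
      zero_add, smul_eq_mul, mul_assoc]
    rfl
  refine ⟨d, hd.isMono, ?_, ?_⟩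
  · obtain ⟨a, b, e, h1, h2, h3, h4, h5, h6⟩ := exists_three_others k
    refine not_isMono (k := k) h4 ?_ ?_
    · rw [hent a k h1.symm]
      exact mul_ne_zero hs (mul_ne_zero (pow_ne_zero _ (hz _ _)) (hz _ _))
    · rw [hent b k h2.symm]
      exact mul_ne_zero hs (mul_ne_zero (pow_ne_zero _ (hz _ _)) (hz _ _))
  · intro i j hij
    have h1 : ((lam ^ q) ^ 3 - lam) * ((lam ^ q) ^ 3 - lam) ^ q = 2 - lam ^ 4 - (lam ^ 4) ^ q := by
      have h2 : ((lam ^ q) ^ 3 - lam) ^ q = lam ^ 3 - lam ^ q := by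
        rw [sub_pow_q hF, ← pow_mul (lam ^ q) 3 q, mul_comm 3 q, pow_mul (lam ^ q) q 3, pow_q_pow_q hF]
      have h3 : (lam ^ 4) ^ q = (lam ^ q) ^ 4 := by rw [← pow_mul, ← pow_mul, mul_comm]
      rw [h2, h3]
      linear_combination ((lam * lam ^ q) ^ 2 + lam * lam ^ q + 2) * hlam
    rw [K, hent i j hij, mul_pow, mul_pow, pow_q_pow_q hF, ← h1, K, K]
    ring

variable {X : Subgroup (SU 4 F q)} (hG : ∀ g : SU 4 F q, IsMono g → g ∈ X)
  (hstar : ∀ y ∈ X, ∀ (k : Fin 4) (c : F), act y (Pi.single k 1) = c • Pi.single k 1 → IsMono y)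
  (h2 : (2 : F) ≠ 0)
include hG hstar h2

/-- (α) -/
theorem alpha (hq : 4 ≤ q) {g : SU 4 F q} (hg : g ∈ X) (hgm : ¬ IsMono g) (k : Fin 4)
    {i j m l : Fin 4} (h1 : i ≠ j) (n2 : i ≠ m) (n3 : i ≠ l) (n4 : j ≠ m) (n5 : j ≠ l) (n6 : m ≠ l) :
    K g i k + K g j k ≠ K g m k + K g l k := by
  intro h
  obtain ⟨b, hb⟩ := exists_B (F := F) hF h1
  have hbX : b ∈ X := hG b hb.isDiag.isMono
  have hD : Dg b (fun a => if a = i ∨ a = j then -1 else 1) := by
    intro x a
    rw [hb]
    show _ = (if a = i ∨ a = j then (-1 : F) else 1) * x a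
    split_ifs <;> ring
  have hyX : g⁻¹ * b * g ∈ X := X.mul_mem (X.mul_mem (X.inv_mem hg) hbX) hg
  have h0 : ent (g⁻¹ * b * g) k k = 0 := by
    rw [ent_conj hF hD, sum_four h1 n2 n3 n4 n5 n6]
    rw [if_pos (Or.inl rfl), if_pos (Or.inr rfl), if_neg (by
      rintro (h | h)
      · exact n2 h.symm
      · exact n4 h.symm), if_neg (by
      rintro (h | h)
      · exact n3 h.symm
      · exact n5 h.symm)]
    simp only [K] at h
    linear_combination -h
  have hym : IsMono (g⁻¹ * b * g) := by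
    by_contra hnm
    exact zero_free hF hG hstar hq hyX hnm k k h0
  exact hgm (mono_of_conj4 hF hG hstar h2 hq hg h1 hb hym)

/-- (T) -/
theorem three_equal (hq : 4 ≤ q) {g : SU 4 F q} (hg : g ∈ X) (hgm : ¬ IsMono g) (k : Fin 4) :
    ∃ r a b c : Fin 4, r ≠ a ∧ r ≠ b ∧ r ≠ c ∧ a ≠ b ∧ a ≠ c ∧ b ≠ c ∧ K g a k = K g b k ∧
      K g b k = K g c k := by
  have hz := zero_free hF hG hstar hq hg hgm
  obtain ⟨lam, hlam, hlam4⟩ := exists_fourth hF hq
  obtain ⟨d, hdm, hym, hK⟩ := exists_hom_conj hF hz k hlam hlam4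
  have hyX : g * d * g⁻¹ ∈ X := X.mul_mem (X.mul_mem hg (hG d hdm)) (X.inv_mem hg)
  have hK0 : ∀ i, K g i k ≠ 0 := fun i => mul_ne_zero (hz i k) (pow_ne_zero _ (hz i k))
  have hzy := zero_free hF hG hstar hq hyX hym
  obtain ⟨t, ht⟩ : ∃ t, t = 2 - lam ^ 4 - (lam ^ 4) ^ q := ⟨_, rfl⟩
  rw [← ht] at hK
  have ht0 : t ≠ 0 := by
    intro h
    have h3 := hK 0 1 (by decide)
    rw [h, zero_mul] at h3
    exact mul_ne_zero (hzy 0 1) (pow_ne_zero _ (hzy 0 1)) h3
  -- cancellation
  have hcan : ∀ {i j l : Fin 4}, i ≠ j → i ≠ l → K (g * d * g⁻¹) i j = K (g * d * g⁻¹) i l →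
      K g j k = K g l k := by
    intro i j l hij hil h
    rw [hK i j hij, hK i l hil] at h
    exact mul_left_cancel₀ (hK0 i) (mul_left_cancel₀ ht0 h)
  obtain ⟨σ, τ, hσ, hσ1, hτ, hτ1, hinv⟩ := three_cycles hF hG hstar h2 hq hyX hym
  have hinv' : ∀ i j, K (g * d * g⁻¹) (σ i) (τ j) = K (g * d * g⁻¹) i j := hinv
  rcases three_comb σ τ hσ hσ1 hτ hτ1 with ⟨r, a, b, c, n1, n2, n3, n4, n5, n6, m1, m2, m3⟩ |
    ⟨r, s, j, j', n1, n2, n3, n4, n5, n6, m1, m2, m3 | m3⟩
  · refine ⟨r, a, b, c, n1, n2, n3, n4, n5, n6, ?_, ?_⟩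
    · have h3 := hinv' r a
      rw [m1, m2] at h3
      exact hcan n1 n2 h3.symm
    · have h3 := hinv' r b
      rw [m1, m3] at h3
      exact hcan n2 n3 h3.symm
  · exfalso
    have h3 := hinv' r j'
    rw [m1, m3.1] at h3
    have h4 := hcan n2 n3 h3
    have h5 := hinv' s j
    rw [m2, m3.2, hK _ _ n2.symm, hK _ _ n4] at h5
    have h6 : K g r k = K g s k := by
      have h7 := mul_left_cancel₀ ht0 h5
      rw [mul_comm (K g s k)] at h7
      exact mul_left_cancel₀ (hK0 j) h7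
    exact alpha hF hG hstar h2 hq hg hgm k n2 n1 n3 n4.symm n6 n5 (by rw [h6, h4])
  · refine ⟨r, s, j', j, n1, n3, n2, n5, n4, n6.symm, ?_, ?_⟩
    · have h5 := hinv' s j
      rw [m2, m3, hK _ _ n6, hK _ _ n4] at h5
      have h7 := mul_left_cancel₀ ht0 h5
      rw [mul_comm (K g s k)] at h7
      exact (mul_left_cancel₀ (hK0 j) h7).symm
    · have h3 := hinv' r j
      rw [m1, m3] at h3
      exact hcan n3 n2 h3

/-- (β) -/
theorem beta (hq : 4 ≤ q) {g : SU 4 F q} (hg : g ∈ X) (hgm : ¬ IsMono g) (k : Fin 4)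
    {i j : Fin 4} (hij : i ≠ j) (hK : K g i k = K g j k) {a : F} (ha : a * a ^ q = 1) (ha1 : a ≠ 1) :
    (2 - a - a ^ q) * K g i k ≠ 1 := by
  classical
  intro h
  have hz := zero_free hF hG hstar hq hg hgm
  obtain ⟨m, l, n2, n3, n4, n5, n6⟩ := exists_two_others hij
  obtain ⟨δ, hδ⟩ : ∃ δ : Fin 4 → F, δ = fun x => if x = i then a else if x = j then a ^ q else 1 :=
    ⟨_, rfl⟩
  have di : δ i = a := by rw [hδ]; simp
  have dj : δ j = a ^ q := by rw [hδ]; simp [hij.symm]
  have dm : δ m = 1 := by rw [hδ]; simp [n2.symm, n4.symm]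
  have dl : δ l = 1 := by rw [hδ]; simp [n3.symm, n5.symm]
  obtain ⟨D, hD⟩ := exists_dg hF (n := 4) δ (by
    intro x
    rw [hδ]
    show (if x = i then a else if x = j then a ^ q else 1) *
      (if x = i then a else if x = j then a ^ q else 1) ^ q = 1
    split_ifs
    · exact ha
    · rw [pow_q_pow_q hF, mul_comm]; exact ha
    · rw [one_pow, one_mul]) (by
    rw [prod_four hij n2 n3 n4 n5 n6, di, dj, dm, dl, mul_one, mul_one]
    exact ha)
  have hDX : D ∈ X := hG D hD.isMono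
  have hyX : g⁻¹ * D * g ∈ X := X.mul_mem (X.mul_mem (X.inv_mem hg) hDX) hg
  have hsum := K_sum hF g k
  rw [sum_four hij n2 n3 n4 n5 n6] at hsum
  have h0 : ent (g⁻¹ * D * g) k k = 0 := by
    rw [ent_conj hF hD, sum_four hij n2 n3 n4 n5 n6, di, dj, dm, dl]
    simp only [K] at hsum h hK
    linear_combination hsum - h + (1 - a ^ q) * hK
  have hym : IsMono (g⁻¹ * D * g) := by
    by_contra hnm
    exact zero_free hF hG hstar hq hyX hnm k k h0
  obtain ⟨σ, e, he0, he⟩ := IsMono.exists_perm hym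
  by_cases hfix : ∃ s, σ s = s
  · obtain ⟨s, hs⟩ := hfix
    have h5 : act D (act g (Pi.single s 1)) = e s • act g (Pi.single s 1) := by
      have h6 := congrArg (act g) (he s)
      rw [hs, act_mul, act_mul, act_act_inv, act_smul] at h6
      exact h6
    have h7 : ∀ i, δ i = e s := by
      intro i
      have h8 := congrFun h5 i
      rw [hD, Pi.smul_apply, smul_eq_mul] at h8
      exact mul_right_cancel₀ (hz i s) h8
    apply ha1
    rw [← di, ← dm, h7, h7]
  · push Not at hfix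
    have htr : ∑ x, ent (g⁻¹ * D * g) x x = 0 := by
      apply Finset.sum_eq_zero
      intro x _
      rw [ent_mono he, if_neg (hfix x).symm]
    have htr2 : ∑ x, ent (g⁻¹ * D * g) x x = ∑ x, δ x := by
      simp only [ent_conj hF hD]
      rw [Finset.sum_comm]
      refine Finset.sum_congr rfl fun x _ => ?_
      rw [← Finset.mul_sum, row_norm hF, mul_one]
    rw [htr2, sum_four hij n2 n3 n4 n5 n6, di, dj, dm, dl] at htr
    have ham : a = -1 := by
      have h8 : (a + 1) ^ 2 = 0 := by linear_combination a * htr - ha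
      have h9 := pow_eq_zero_iff (two_ne_zero) |>.1 h8
      linear_combination h9
    have hB : IsB D i j := by
      intro x l'
      rw [hD, hδ]
      show (if l' = i then a else if l' = j then a ^ q else 1) * x l' = _
      have haq : a ^ q = -1 := by rw [ham, neg_pow_q hF, one_pow]
      rw [haq, ham]
      by_cases c1 : l' = i
      · rw [if_pos c1, if_pos (Or.inl c1)]; ring
      · by_cases c2 : l' = j
        · rw [if_neg c1, if_pos c2, if_pos (Or.inr c2)]; ring
        · rw [if_neg c1, if_neg c2, if_neg (by (clear * - i j l' c1 c2; tauto))]; ring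
    exact hgm (mono_of_conj4 hF hG hstar h2 hq hg hij hB hym)

theorem no_nonmono (hq : 4 ≤ q) {g : SU 4 F q} (hg : g ∈ X) : IsMono g := by
  by_contra hgm
  have hz := zero_free hF hG hstar hq hg hgm
  obtain ⟨r, i, j, m, n1, n2, n3, n4, n5, n6, hKij, hKjm⟩ := three_equal hF hG hstar h2 hq hg hgm 0
  obtain ⟨lam, hlam, hlam4⟩ := exists_fourth hF hq
  obtain ⟨d, hdm, hym, hK⟩ := exists_hom_conj hF hz 0 hlam hlam4
  have hyX : g * d * g⁻¹ ∈ X := X.mul_mem (X.mul_mem hg (hG d hdm)) (X.inv_mem hg)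
  have hK0 : ∀ i, K g i 0 ≠ 0 := fun i => mul_ne_zero (hz i 0) (pow_ne_zero _ (hz i 0))
  have hzy := zero_free hF hG hstar hq hyX hym
  obtain ⟨t, ht⟩ : ∃ t, t = 2 - lam ^ 4 - (lam ^ 4) ^ q := ⟨_, rfl⟩
  rw [← ht] at hK
  have ht0 : t ≠ 0 := by
    intro h
    have h3 := hK 0 1 (by decide)
    rw [h, zero_mul] at h3
    exact mul_ne_zero (hzy 0 1) (pow_ne_zero _ (hzy 0 1)) h3
  obtain ⟨κ, hκ⟩ : ∃ κ, κ = K g i 0 := ⟨_, rfl⟩
  have hi : K g i 0 = κ := hκ.symm
  have hj : K g j 0 = κ := by rw [← hKij, hi]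
  have hm : K g m 0 = κ := by rw [← hKjm, hj]
  have hκ0 : κ ≠ 0 := by rw [hκ]; exact hK0 i
  have hne : κ ≠ K g r 0 := by
    intro h
    exact alpha hF hG hstar h2 hq hg hgm 0 n4 n1.symm n5 n2.symm n6 n3 (by rw [hi, hj, hm, ← h])
  -- column `i` of `y`
  have kji : K (g * d * g⁻¹) j i = t * (κ * κ) := by rw [hK j i n4.symm, hi, hj]
  have kmi : K (g * d * g⁻¹) m i = t * (κ * κ) := by rw [hK m i n5.symm, hi, hm]
  have kri : K (g * d * g⁻¹) r i = t * (K g r 0 * κ) := by rw [hK r i n1, hi]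
  have hs1 := K_sum hF g 0
  rw [sum_four n1 n2 n3 n4 n5 n6, hi, hj, hm] at hs1
  have hs2 := K_sum hF (g * d * g⁻¹) i
  rw [sum_four n1 n2 n3 n4 n5 n6, kji, kmi, kri] at hs2
  have hjr : K (g * d * g⁻¹) j i ≠ K (g * d * g⁻¹) r i := by
    rw [kji, kri]
    intro h
    exact hne (mul_right_cancel₀ hκ0 (mul_left_cancel₀ ht0 h))
  have hmr : K (g * d * g⁻¹) m i ≠ K (g * d * g⁻¹) r i := by
    rw [kmi, ← kji]; exact hjr
  -- the special point is `r`
  obtain ⟨r', a, b, c, o1, o2, o3, o4, o5, o6, hab, hbc⟩ := three_equal hF hG hstar h2 hq hyX hym i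
  have hji : K (g * d * g⁻¹) j i = K (g * d * g⁻¹) i i := by
    by_cases hr : r' = r
    · -- `a, b, c` are `i, j, m`
      subst hr
      have hall : ∀ x : Fin 4, x ≠ r' → K (g * d * g⁻¹) x i = K (g * d * g⁻¹) a i := by
        intro x hx
        have : x ∈ (Finset.univ : Finset (Fin 4)) := Finset.mem_univ x
        rw [univ_four o1 o2 o3 o4 o5 o6] at this
        simp only [Finset.mem_insert, Finset.mem_singleton] at this
        rcases this with h | h | h | h
        · exact absurd h hx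
        · rw [h]
        · rw [h, hab]
        · rw [h, ← hbc, hab]
      rw [hall j n2.symm, hall i n1.symm]
    · exfalso
      -- two of `r, j, m` are among `a, b, c`, one of them being `r`
      have hall : ∀ x : Fin 4, x ≠ r' → K (g * d * g⁻¹) x i = K (g * d * g⁻¹) a i := by
        intro x hx
        have : x ∈ (Finset.univ : Finset (Fin 4)) := Finset.mem_univ x
        rw [univ_four o1 o2 o3 o4 o5 o6] at this
        simp only [Finset.mem_insert, Finset.mem_singleton] at this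
        rcases this with h | h | h | h
        · exact absurd h hx
        · rw [h]
        · rw [h, hab]
        · rw [h, ← hbc, hab]
      have h3 := hall r (Ne.symm hr)
      by_cases hj' : j = r'
      · exact hmr (by rw [h3, hall m (by rw [← hj']; exact n6.symm)])
      · exact hjr (by rw [h3, hall j hj'])
  have htκ : t * κ = 1 := by
    rw [← hji, kji] at hs2
    linear_combination hs2 - (t * κ) * hs1
  have hnorm : lam ^ 4 * (lam ^ 4) ^ q = 1 := by
    have h3 : (lam ^ 4) ^ q = (lam ^ q) ^ 4 := by rw [← pow_mul, ← pow_mul, mul_comm]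
    rw [h3, ← mul_pow, hlam, one_pow]
  refine beta hF hG hstar h2 hq hg hgm 0 n4 hKij hnorm hlam4 ?_
  rw [← ht, hi, htκ]

end

section

variable [Fintype F] (hF : Fintype.card F = q ^ 2)
include hF

/-- **Overgroups of the monomial group**: `n = 4`, `q ≥ 5` odd. -/
theorem eq_top_four_odd {X : Subgroup (SU 4 F q)} (hG : ∀ g : SU 4 F q, IsMono g → g ∈ X)
    (h2 : (2 : F) ≠ 0) (hq : 4 ≤ q) (hX : ∃ g ∈ X, ¬ IsMono g) : X = ⊤ := by
  by_contra htop
  have hstar : ∀ y ∈ X, ∀ (k : Fin 4) (c : F), act y (Pi.single k 1) = c • Pi.single k 1 → IsMono y := by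
    intro y hy k c hk
    by_contra hny
    exact htop (eq_top_of_fix hF hG (by omega) (by omega) hy hny hk)
  obtain ⟨g, hg, hgm⟩ := hX
  exact hgm (no_nonmono hF hG hstar h2 hq hg)

end

end Cfsg.Agent.H876.Four

private theorem dce_a5e9257dc51d : _root_.True := by
  try have : _root_.True := by simp only [_root_.Cfsg.Agent.H876.Four.K.eq_1]
  exact _root_.True.intro
end

-- part: H876/FourTwo
section
set_option linter.all false
open scoped Cfsg.Agent.FastGrp

/-!
# Overgroups of the monomial group of `SU_4(2)`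
-/

set_option autoImplicit false

namespace Cfsg.Agent.H876.Four

open Cfsg Cfsg.Agent.LieClassical.HermBasic Cfsg.Agent.LieClassical.HermSiegel Cfsg.Agent.H927
open Cfsg.Agent.H876.EvenFrame Cfsg.Agent.H876.TwoFrame

variable {F : Type*} [Field F] {X : Subgroup (SU 4 F 2)}

section

variable [Fintype F] (hF : Fintype.card F = 2 ^ 2)
include hF

/-- monomial elements are transitive, up to scalars, on vectors without zero coordinates. -/
theorem exists_mono_map_full {v v' : Fin 4 → F} (hv : ∀ i, v i ≠ 0) (hv' : ∀ i, v' i ≠ 0) :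
    ∃ g : SU 4 F 2, IsMono g ∧ ∃ c : F, c ≠ 0 ∧ act g v = c • v' := by
  classical
  obtain ⟨P, hP⟩ : ∃ P, P = ∏ i, v' i / v i := ⟨_, rfl⟩
  have hP0 : P ≠ 0 := by
    rw [hP]; exact Finset.prod_ne_zero_iff.2 fun i _ => div_ne_zero (hv' i) (hv i)
  have hc0 : P⁻¹ ≠ 0 := inv_ne_zero hP0
  obtain ⟨g, hg⟩ := exists_dg hF (n := 4) (fun i => P⁻¹ * (v' i / v i))
    (fun i => norm_one hF (mul_ne_zero hc0 (div_ne_zero (hv' i) (hv i)))) (by
    rw [Finset.prod_mul_distrib, Finset.prod_const, Finset.card_univ, Fintype.card_fin, ← hP]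
    have h1 := norm_one hF hc0
    have h2 : P⁻¹ ^ 4 = P⁻¹ := by linear_combination P⁻¹ * h1
    rw [h2, inv_mul_cancel₀ hP0])
  refine ⟨g, hg.isMono, P⁻¹, hc0, ?_⟩
  funext i
  rw [hg, Pi.smul_apply, smul_eq_mul, mul_assoc, div_mul_cancel₀ _ (hv i)]

variable (hG : ∀ g : SU 4 F 2, IsMono g → g ∈ X)
include hG

/-- all isotropic vectors. -/
theorem all_tx_four (hX : ∃ g ∈ X, ¬ IsMono g) (x : Fin 4 → F) (hx : hermForm 4 F 2 x x = 0) : TX X x := by
  classical
  have h2 := two_eq_zero hF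
  have hfull : ∀ {v : Fin 4 → F}, 3 ≤ (supp v).card → Even (supp v).card → ∀ i, v i ≠ 0 := by
    intro v h3 hev i
    have h4 : (supp v).card = 4 := by
      have := Finset.card_le_univ (supp v)
      rw [Fintype.card_fin] at this
      obtain ⟨m, hm⟩ := hev
      omega
    have h1 : supp v = Finset.univ := by
      apply Finset.eq_univ_of_card
      rw [Fintype.card_fin, h4]
    exact mem_supp.1 (by rw [h1]; exact Finset.mem_univ i)
  have hev := (iso_iff hF x).1 hx
  obtain ⟨m, hm⟩ : ∃ m, m = (supp x).card := ⟨_, rfl⟩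
  rw [← hm] at hev
  rcases Nat.lt_or_ge m 1 with h0 | h1
  · have hx0 : x = 0 := by
      funext i
      by_contra h
      have h3 : i ∈ supp x := mem_supp.2 h
      have h4 := Finset.card_pos.2 ⟨i, h3⟩
      omega
    subst hx0
    refine ⟨hx, 1, X.one_mem, fun y => ?_⟩
    rw [act_one, smul_zero, add_zero]
  rcases Nat.lt_or_ge m 3 with h3 | h3
  · have hm2 : (supp x).card = 2 := by
      obtain ⟨l, hl⟩ := hev; omega
    obtain ⟨i, j, hij, hs⟩ := Finset.card_eq_two.1 hm2
    have hxi : x i ≠ 0 := mem_supp.1 (by rw [hs]; simp)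
    have hxj : x j ≠ 0 := mem_supp.1 (by rw [hs]; simp)
    have h5 := (tx_pair hF h2 hG hij (norm_one hF (div_ne_zero hxj hxi))).smul (norm_one hF hxi)
    have h7 : x i • (Pi.single i 1 + (x j / x i) • Pi.single j (1 : F)) = x := by
      funext l
      simp only [Pi.smul_apply, Pi.add_apply, smul_eq_mul]
      by_cases hli : l = i
      · subst hli
        rw [Pi.single_eq_same, Pi.single_eq_of_ne hij]; ring
      by_cases hlj : l = j
      · subst hlj
        rw [Pi.single_eq_same, Pi.single_eq_of_ne hli]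
        field_simp
        ring
      rw [Pi.single_eq_of_ne hli, Pi.single_eq_of_ne hlj]
      have : x l = 0 := by
        by_contra h
        have := mem_supp.2 h
        rw [hs, Finset.mem_insert, Finset.mem_singleton] at this
        rcases this with h | h
        · exact hli h
        · exact hlj h
      rw [this]; ring
    rwa [h7] at h5
  · obtain ⟨v, hv, hv3⟩ := exists_three hF h2 hG le_rfl hX
    have hvf := hfull hv3 ((iso_iff hF v).1 hv.iso)
    have hxf := hfull (v := x) (by omega) (by rw [← hm]; exact hev)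
    obtain ⟨g, hg, c, hc0, hgv⟩ := exists_mono_map_full hF hvf hxf
    have h5 := (hv.map (hG g hg)).smul (norm_one hF (inv_ne_zero hc0))
    rwa [hgv, smul_smul, inv_mul_cancel₀ hc0, one_smul] at h5

/-- **Overgroups of the monomial group**: `n = 4`, `q = 2`. -/
theorem eq_top_four_two (hX : ∃ g ∈ X, ¬ IsMono g) : X = ⊤ := by
  have h2 := two_eq_zero hF
  rw [eq_top_iff, ← Cfsg.Agent.S0780.result hF 4 (by omega) (by omega), Subgroup.closure_le]
  rintro B ⟨v, c, hv, hB⟩
  rcases Cfsg.Agent.ClassicalGeometry.UnitTransv.eq_one_or_utv hF hv hB with rfl | ⟨hc0, hc, rfl⟩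
  · exact X.one_mem
  · obtain ⟨-, g, hg, hact⟩ := all_tx_four hF hG hX v hv
    by_cases hc00 : c = 0
    · subst hc00
      have h3 : Cfsg.Agent.ClassicalGeometry.UnitTransv.utv hF v 0 hv hc = 1 := by
        apply ext_act
        intro x
        have h1 := Cfsg.Agent.ClassicalGeometry.UnitTransv.act_utv hF hv hc x
        rw [zero_mul, zero_smul, add_zero] at h1
        rw [act_one]
        exact h1
      rw [SetLike.mem_coe, h3]
      exact X.one_mem
    have hc1 : c = 1 := by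
      have h3 : c * (1 + c) = 0 := by linear_combination hc
      have h4 := (mul_eq_zero.1 h3).resolve_left hc00
      linear_combination h4 - h2
    subst hc1
    have h3 : Cfsg.Agent.ClassicalGeometry.UnitTransv.utv hF v 1 hv hc = g := by
      apply ext_act
      intro x
      have h1 := Cfsg.Agent.ClassicalGeometry.UnitTransv.act_utv hF hv hc x
      rw [one_mul] at h1
      rw [hact]
      exact h1
    rw [SetLike.mem_coe, h3]
    exact hg

end

end Cfsg.Agent.H876.Four
end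

-- part: H876/FrameFour
section
set_option linter.all false

/-!
# `SU_4(q)`: the stabiliser of an orthonormal frame is maximal, all `q ≠ 3`
-/

set_option autoImplicit false
open Cfsg
open scoped Matrix MatrixGroups

namespace Cfsg.Agent.H876.FrameMax

open Cfsg.Agent.H927

variable {F : Type*} [Field F] [Fintype F] {q t : ℕ}

/-- overgroups of the monomial group, `n = 4`, `q ≠ 3`. -/
theorem frame_top_four (hF : Fintype.card F = q ^ 2) (hq3 : q ≠ 3)
    (X : Subgroup (SU 4 F q)) (hG : ∀ g, IsMono g → g ∈ X) (hX : ∃ g ∈ X, ¬ IsMono g) : X = ⊤ := by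
  rcases cases_q hF with rfl | ⟨h2, hq⟩ | ⟨h2, hq⟩
  · exact Four.eq_top_four_two hF hG hX
  · exact Four.eq_top_four_even hF hG h2 hq hX
  · exact Four.eq_top_four_odd hF hG h2 (by omega) hX

/-- **Stabilisers of orthonormal frames are maximal in `SU_4(q)`**, all `q ≠ 3`. -/
theorem frame_maximal_four (hF : Fintype.card F = q ^ 2) (hq3 : q ≠ 3)
    (D : Fin t → Submodule F (Fin 4 → F))
    (hD : Cfsg.Geo.IsNondegenerateMDecomposition (Cfsg.hermForm 4 F q) 1 D) :
    Cfsg.Geo.IsMaximalIn (Cfsg.GU 4 F q ⊓ Cfsg.Geo.specialLinear (Fin 4) F)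
      (Cfsg.Geo.decompositionStabilizer D ⊓ (Cfsg.GU 4 F q ⊓ Cfsg.Geo.specialLinear (Fin 4) F)) :=
  frame_maximal hF (by omega) D hD (frame_top_four hF hq3)

end Cfsg.Agent.H876.FrameMax
end

-- part: H900/SU4/Dec22
section
prune_inst 0x1140454034a2020000180004000000042400049000000800c860010000410002204500010a30100000989040400000200044001040400000040004000007000000811206b008a00840000e000080000000000000000000000000000000010004000000000
set_option linter.all false
open scoped Cfsg.Agent.FastGrp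

/-!
# `SU_4(q)`: stabilisers of orthogonal decompositions into two 2-spaces are maximal, `q ≥ 3`
-/

set_option autoImplicit false
open Cfsg
open scoped Matrix MatrixGroups

namespace Cfsg.Agent.H900.SU4

open Cfsg.Agent.LieClassical.HermBasic Cfsg.Agent.ClassicalGeometry.UnitTransv
open Cfsg.Agent.ClassicalGeometry.HermOrtho Cfsg.Agent.H876

variable {F : Type*} [Field F] [Fintype F] {n q t : ℕ}
variable {D : Fin t → Submodule F (Fin n → F)} {π : Fin t → (Fin n → F) →ₗ[F] (Fin n → F)}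
  {M : Subgroup (GL (Fin n) F)} {k : ℕ}

/-- moving a non-isotropic component. -/
theorem pair_move_noniso (A : Amb q k D π M) (hk2 : 2 ≤ k) {i j : Fin t} (hij : i ≠ j)
    {w w' u : Fin n → F} (hw : w ∈ D i) (hw' : w' ∈ D i) (hu : u ∈ D j) (hw0 : w ≠ 0)
    (hn : hermForm n F q w w = hermForm n F q w' w') (hww' : hermForm n F q w' w' ≠ 0)
    (h : InS q M (w + u)) : InS q M (w' + u) := by
  obtain ⟨z, hz, hzw, hzz⟩ := exists_noniso_perp_two A.hF (A.od.nd i) (by rw [A.hk]; exact hk2) hw' hww'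
  have h1 : π i (w + u) = w := by rw [map_add, A.od.fix hw, A.od.zero hij hu, add_zero]
  have h2 : w + u - π i (w + u) + w' = w' + u := by rw [h1]; abel
  obtain ⟨g, hg, hgx⟩ := A.od.move1 A.hF A.hk (i := i) (x := w + u) hw' (by rw [h1]; exact hw0)
    (ne_zero_of_norm hww') (by rw [h1]; exact hn) hz hzz (by
      rw [h2, herm_add_left, herm_eq_zero_swap A.hF hzw, A.od.orth j i (Ne.symm hij) u hu z hz, add_zero])
  rw [h2] at hgx
  rw [← hgx]
  exact InS.map (A.hHM hg) hg.2.1 h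

/-- all non-isotropic pairs from one. -/
theorem all_noniso (A : Amb q k D π M) (hk2 : 2 ≤ k) {i j : Fin t} (hij : i ≠ j)
    {w u : Fin n → F} (hw : w ∈ D i) (hu : u ∈ D j) (hww : hermForm n F q w w ≠ 0)
    (h : InS q M (w + u)) : ∀ w' ∈ D i, ∀ u' ∈ D j, hermForm n F q w' w' ≠ 0 →
      hermForm n F q w' w' + hermForm n F q u' u' = 0 → InS q M (w' + u') := by
  have hF := A.hF
  have hperp := A.od.orth i j hij
  have hperp' := A.od.orth j i (Ne.symm hij)
  have hs : hermForm n F q w w + hermForm n F q u u = 0 := by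
    have h1 := h.iso
    rw [herm_add_left, herm_add_right hF, herm_add_right hF, hperp w hw u hu, hperp' u hu w hw] at h1
    linear_combination h1
  have huu : hermForm n F q u u ≠ 0 := by
    intro h0; apply hww; linear_combination hs - h0
  intro w' hw' u' hu' hww' hs'
  have huu' : hermForm n F q u' u' ≠ 0 := by
    intro h0; apply hww'; linear_combination hs' - h0
  obtain ⟨l, hl0, hl⟩ := exists_norm_eq_ne hF (c := hermForm n F q w' w' / hermForm n F q w w)
    (by rw [div_pow, herm_self_pow hF, herm_self_pow hF]) (div_ne_zero hww' hww)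
  have h1 := InS.smul hF h l
  rw [smul_add] at h1
  have e0 : l * l ^ q * hermForm n F q w w = hermForm n F q w' w' := by
    rw [hl, div_mul_cancel₀ _ hww]
  have e1 : hermForm n F q (l • w) (l • w) = hermForm n F q w' w' := by
    rw [herm_smul_left, herm_smul_right]
    linear_combination e0
  have e2 : hermForm n F q (l • u) (l • u) = hermForm n F q u' u' := by
    rw [herm_smul_left, herm_smul_right]
    linear_combination -e0 + (l * l ^ q) * hs - hs'
  have h2 := pair_move_noniso A hk2 hij ((D i).smul_mem _ hw) hw' ((D j).smul_mem _ hu)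
    (smul_ne_zero hl0 (ne_zero_of_norm hww)) e1 hww' h1
  rw [add_comm] at h2 ⊢
  exact pair_move_noniso A hk2 (Ne.symm hij) ((D j).smul_mem _ hu) hu' hw'
    (smul_ne_zero hl0 (ne_zero_of_norm huu)) e2 huu' h2

/-- all pairs from one non-isotropic pair. -/
theorem hp_of_noniso (A : Amb q k D π M) (hk2 : 2 ≤ k) (hq : 3 ≤ q) {i j : Fin t} (hij : i ≠ j)
    {w u : Fin n → F} (hw : w ∈ D i) (hu : u ∈ D j) (hww : hermForm n F q w w ≠ 0)
    (h : InS q M (w + u)) : HP q D M i j := by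
  have hF := A.hF
  have hperp := A.od.orth i j hij
  have hperp' := A.od.orth j i (Ne.symm hij)
  have hall := all_noniso A hk2 hij hw hu hww h
  intro w' hw' u' hu' hs'
  by_cases hww' : hermForm n F q w' w' = 0
  swap
  · exact hall w' hw' u' hu' hww' hs'
  have huu' : hermForm n F q u' u' = 0 := by linear_combination hs' - hww'
  by_cases hw0' : w' = 0
  · subst hw0'; rw [zero_add]; exact A.inS_of_mem hu' huu'
  by_cases hu0' : u' = 0
  · subst hu0'; rw [add_zero]; exact A.inS_of_mem hw' hww'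
  obtain ⟨α, hα0, hα⟩ := exists_trace_zero_ne hF
  obtain ⟨l, hl, hl0, hl1⟩ := exists_fixed_ne hF hq 1
  have hβ : (l * α) + (l * α) ^ q = 0 := by rw [mul_pow, hl]; linear_combination l * hα
  have hβ0 : l * α ≠ 0 := mul_ne_zero hl0 hα0
  have hγ : ((1 - l) * α) + ((1 - l) * α) ^ q = 0 := by
    rw [mul_pow, sub_pow_q hF, hl, one_pow]; linear_combination (1 - l) * hα
  have hγ0 : (1 - l) * α ≠ 0 := mul_ne_zero (sub_ne_zero.2 (Ne.symm hl1)) hα0
  obtain ⟨w1, hw1, hw1w', hw11⟩ := exists_vec hF (A.od.nd i) (by rw [A.hk]; omega) hw' hw0' (β := l * α)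
    (ν := 1) (one_pow q) (fun _ h => absurd h hβ0)
  obtain ⟨u1, hu1, hu1u', hu11⟩ := exists_vec hF (A.od.nd j) (by rw [A.hk]; omega) hu' hu0'
    (β := (1 - l) * α) (ν := -1) (by rw [neg_pow_q hF, one_pow]) (fun _ h => absurd h hγ0)
  have hw'w1 : hermForm n F q w1 w' = (l * α) ^ q := by rw [herm_swap hF w' w1, hw1w']
  have hu'u1 : hermForm n F q u1 u' = ((1 - l) * α) ^ q := by rw [herm_swap hF u' u1, hu1u']
  have h1 : InS q M (w1 + u1) := hall w1 hw1 u1 hu1 (by rw [hw11]; exact one_ne_zero)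
    (by rw [hw11, hu11]; ring)
  have e3 : hermForm n F q (w1 - w') (w1 - w') = 1 := by
    rw [herm_sub_left, herm_sub_right hF, herm_sub_right hF, hw11, hw1w', hw'w1, hww']
    linear_combination -hβ
  have e4 : hermForm n F q (u1 - u') (u1 - u') = -1 := by
    rw [herm_sub_left, herm_sub_right hF, herm_sub_right hF, hu11, hu1u', hu'u1, huu']
    linear_combination -hγ
  have h2 : InS q M ((w1 - w') + (u1 - u')) := hall _ ((D i).sub_mem hw1 hw') _ ((D j).sub_mem hu1 hu')
    (by rw [e3]; exact one_ne_zero) (by rw [e3, e4]; ring)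
  have h6 : (1 : F) • (w1 + u1) + (-1 : F) • ((w1 - w') + (u1 - u')) = w' + u' := by
    rw [one_smul, neg_one_smul]; abel
  have h3 := InS.line hF h1 h2 (by
    rw [herm_add_left, herm_add_right hF, herm_add_right hF, hperp w1 hw1 _ ((D j).sub_mem hu1 hu'),
      hperp' _ hu1 _ ((D i).sub_mem hw1 hw'), herm_sub_right hF, herm_sub_right hF, hw11, hu11, hw'w1,
      hu'u1]
    intro h0
    apply pow_ne_zero q hα0
    have h7 : (l * α) ^ q + ((1 - l) * α) ^ q = α ^ q := by
      rw [mul_pow, mul_pow, sub_pow_q hF, one_pow]; ring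
    linear_combination -h0 - h7) 1 (-1) (by
      rw [h6, herm_add_left, herm_add_right hF, herm_add_right hF, hperp w' hw' u' hu',
        hperp' u' hu' w' hw']
      linear_combination hs')
  rwa [h6] at h3

/-- a pair with non-isotropic components from one with isotropic components, `t = 2`. -/
theorem exists_noniso (A : Amb q k D π M) (hk2 : 2 ≤ k) {i j : Fin t}
    (hij : i ≠ j) {a b : Fin n → F} (ha : a ∈ D i) (hb : b ∈ D j) (ha0 : a ≠ 0) (hb0 : b ≠ 0)
    (haa : hermForm n F q a a = 0) (hbb : hermForm n F q b b = 0) (hx : InS q M (a + b)) :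
    ∃ w ∈ D i, ∃ u ∈ D j, hermForm n F q w w ≠ 0 ∧ InS q M (w + u) := by
  have hF := A.hF
  have hperp := A.od.orth i j hij
  have hperp' := A.od.orth j i (Ne.symm hij)
  obtain ⟨d, hd, hdne⟩ := H927.exists_norm_one_ne_conj hF
  obtain ⟨u, hu, hau, huu⟩ := exists_vec hF (A.od.nd i) (by rw [A.hk]; omega) ha ha0 (β := 1)
    (ν := 1) (one_pow q) (fun _ h => absurd h one_ne_zero)
  obtain ⟨w, hw, hbw, hww⟩ := exists_vec hF (A.od.nd j) (by rw [A.hk]; omega) hb hb0 (β := 1)
    (ν := 1) (one_pow q) (fun _ h => absurd h one_ne_zero)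
  obtain ⟨g, hg0⟩ := H927.exists_tor hF huu hww (hperp u hu w hw) hd
  have hg : ∀ x, (suGL n F q g : Matrix (Fin n) (Fin n) F) *ᵥ x =
      x + ((d - 1) * hermForm n F q x u) • u + ((d ^ q - 1) * hermForm n F q x w) • w := hg0
  have hgM : suGL n F q g ∈ M := by
    apply A.hHM
    refine mem_H_of A.hk (suGL_mem g) 1 fun l x hx => ?_
    rw [Equiv.Perm.one_apply, hg]
    refine (D l).add_mem ((D l).add_mem hx ?_) ?_
    · by_cases hl : l = i
      · subst hl; exact (D l).smul_mem _ hu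
      · rw [A.od.orth l i hl x hx u hu, mul_zero, zero_smul]; exact (D l).zero_mem
    · by_cases hl : l = j
      · subst hl; exact (D l).smul_mem _ hw
      · rw [A.od.orth l j hl x hx w hw, mul_zero, zero_smul]; exact (D l).zero_mem
  have h1 := InS.map hgM (suGL_mem g).1 hx
  have hau' : hermForm n F q (a + b) u = 1 := by rw [herm_add_left, hau, hperp' b hb u hu, add_zero]
  have hbw' : hermForm n F q (a + b) w = 1 := by rw [herm_add_left, hbw, hperp a ha w hw, zero_add]
  rw [hg, hau', hbw', mul_one, mul_one] at h1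
  set a' := a + (d - 1) • u with ha'
  set b' := b + (d ^ q - 1) • w with hb'
  have ha'D : a' ∈ D i := (D i).add_mem ha ((D i).smul_mem _ hu)
  have hb'D : b' ∈ D j := (D j).add_mem hb ((D j).smul_mem _ hw)
  have e1 : a + b + (d - 1) • u + (d ^ q - 1) • w = a' + b' := by rw [ha', hb']; abel
  rw [e1] at h1
  have hdq : (d ^ q) ^ q = d := pow_q_pow_q hF d
  have hs : hermForm n F q a a' = d ^ q - 1 := by
    rw [ha', herm_add_right hF, haa, herm_smul_right, hau, sub_pow_q hF, one_pow]; ring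
  have hr : hermForm n F q b b' = d - 1 := by
    rw [hb', herm_add_right hF, hbb, herm_smul_right, hbw, sub_pow_q hF, one_pow, hdq]; ring
  have hne1 : d ≠ 1 := by
    rintro rfl
    rw [one_pow] at hdne
    exact hdne rfl
  have hd0 : d ≠ 0 := by
    rintro rfl
    rw [zero_mul] at hd
    exact zero_ne_one hd
  -- `s + r ≠ 0`
  have hsum : (d ^ q - 1) + (d - 1) ≠ 0 := by
    intro h0
    apply hne1
    have h2 : (d - 1) * (d - 1) = 0 := by linear_combination -hd + d * h0
    exact sub_eq_zero.1 (mul_self_eq_zero.1 h2)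
  have hh : hermForm n F q (a + b) (a' + b') = (d ^ q - 1) + (d - 1) := by
    have q1 := hperp a ha _ hb'D
    have q2 := hperp' b hb _ ha'D
    rw [herm_add_left, herm_add_right hF a, herm_add_right hF b, q1, q2, hs, hr]
    ring
  have hh' : hermForm n F q (a' + b') (a + b) = (d ^ q - 1) + (d - 1) := by
    rw [herm_swap hF (a + b), hh, add_pow_q hF, sub_pow_q hF, sub_pow_q hF, hdq, one_pow]; ring
  have hsumq : ((d ^ q - 1) + (d - 1)) ^ q = (d ^ q - 1) + (d - 1) := by
    rw [add_pow_q hF, sub_pow_q hF, sub_pow_q hF, hdq, one_pow]; ring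
  obtain ⟨c, hc0, hc⟩ := exists_trace_zero_ne hF
  have hcq : c ^ q = -c := by linear_combination hc
  set κ := c / ((d ^ q - 1) + (d - 1)) with hκ
  have hκq : κ ^ q = -κ := by rw [hκ, div_pow, hsumq, hcq, neg_div]
  have hκ0 : κ ≠ 0 := div_ne_zero hc0 hsum
  have hiso : hermForm n F q (κ • (a + b) + (1 : F) • (a' + b')) (κ • (a + b) + (1 : F) • (a' + b')) = 0 := by
    have q1 := hx.iso
    have q2 := h1.iso
    generalize a + b = X at hh hh' q1 ⊢
    generalize a' + b' = Y at hh hh' q2 ⊢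
    rw [one_smul, herm_add_left, herm_add_right hF, herm_add_right hF, herm_smul_left, herm_smul_left,
      herm_smul_right, herm_smul_right, hh, hh', q1, q2, hκq]
    ring
  have h2 := InS.line hF hx h1 (by rw [hh]; exact hsum) κ 1 hiso
  have e2 : κ • (a + b) + (1 : F) • (a' + b') = (κ • a + a') + (κ • b + b') := by
    rw [one_smul, smul_add]; abel
  rw [e2] at h2
  refine ⟨κ • a + a', (D i).add_mem ((D i).smul_mem _ ha) ha'D, κ • b + b',
    (D j).add_mem ((D j).smul_mem _ hb) hb'D, ?_, h2⟩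
  have hs' : hermForm n F q a' a = d - 1 := by rw [herm_swap hF a, hs, sub_pow_q hF, hdq, one_pow]
  have ha'a' : hermForm n F q a' a' = 0 := by
    rw [ha', herm_add_left, herm_add_right hF, herm_add_right hF, haa, herm_smul_left, herm_smul_left,
      herm_smul_right, herm_smul_right, hau, huu, herm_swap hF a u, hau, sub_pow_q hF, one_pow]
    linear_combination hd
  clear_value a'
  rw [herm_add_left, herm_add_right hF, herm_add_right hF, herm_smul_left, herm_smul_left,
    herm_smul_right, herm_smul_right, haa, hs, hs', ha'a', hκq]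
  intro h0
  apply hdne
  have h3 : κ * (d ^ q - d) = 0 := by linear_combination h0
  exact sub_eq_zero.1 ((mul_eq_zero.1 h3).resolve_left hκ0)

/-- **Two orthogonal non-degenerate spaces of dimension `k ≥ 2`, `q ≥ 3`.** -/
theorem dec_maximal {F : Type*} [Field F] [Fintype F] (n q : ℕ) (hF : Fintype.card F = q ^ 2) (hn : 3 ≤ n)
    (h32 : ¬ (n = 3 ∧ q = 2)) (k : ℕ) (D : Fin 2 → Submodule F (Fin n → F))
    (hD : Cfsg.Geo.IsNondegenerateMDecomposition (Cfsg.hermForm n F q) k D)
    (hk2 : 2 ≤ k) (hq : 3 ≤ q) :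
    Cfsg.Geo.IsMaximalIn (Cfsg.GU n F q ⊓ Cfsg.Geo.specialLinear (Fin n) F)
      (Cfsg.Geo.decompositionStabilizer D ⊓ (Cfsg.GU n F q ⊓ Cfsg.Geo.specialLinear (Fin n) F)) := by
  obtain ⟨π, hOD⟩ := exists_OD hF hD
  have hk := hD.decomp.finrank_eq
  have ht := hD.decomp.two_le
  apply isMaximalIn_of inf_le_right
  · intro hle
    exact H918.SUg_not_le_decompositionStabilizer hF hn h32 hD.decomp (hle.trans inf_le_left)
  · intro M hHM hMG hM
    have A : Amb q k D π M := ⟨hF, hOD, hk, hHM, hMG⟩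
    obtain ⟨x, hx, i, j, hij, hxi, hxj⟩ := A.exists_two hk2 hM
    have hxe : x = π i x + π j x := A.od.eq_pair hij fun l hl hl' => by
      exfalso
      fin_cases i <;> fin_cases j <;> fin_cases l <;> simp_all only [_root_.not_and, _root_.Fin.forall_fin_two, _root_.Fin.isValue, _root_.Std.le_refl, _root_.le_inf_iff, _root_.Subgroup.mem_inf, _root_.Fin.zero_eta, _root_.ne_eq, _root_.not_false_eq_true, _root_.not_true_eq_false, _root_.Fin.mk_one, _root_.zero_ne_one, _root_.one_ne_zero]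
    have hP : HP q D M i j := by
      rw [hxe] at hx
      have hperp := A.od.orth i j hij _ (A.od.mem i x) _ (A.od.mem j x)
      have hi := hx.iso
      rw [herm_add_left, herm_add_right hF, herm_add_right hF, hperp, herm_eq_zero_swap hF hperp] at hi
      by_cases haa : hermForm n F q (π i x) (π i x) = 0
      · obtain ⟨w, hw, u, hu, hww, h⟩ := exists_noniso A hk2 hij (A.od.mem i x) (A.od.mem j x) hxi hxj haa
          (by linear_combination hi - haa) hx
        exact hp_of_noniso A hk2 hq hij hw hu hww h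
      · exact hp_of_noniso A hk2 hq hij (A.od.mem i x) (A.od.mem j x) haa hx
    exact su_le hF hn h32 fun y hy =>
      A.inS_all hk2 ht (Or.inl hq) (A.hp_all (by omega) hij hP) _ y hy le_rfl

end Cfsg.Agent.H900.SU4
end
end
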